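import Cfsg.Agent.BlockLib.KG.Inertial
import Cfsg.Agent.Fus.Grp

/-!
# The fusion system of a maximal Brauer pair: construction and saturation
-/

set_option autoImplicit false

namespace Cfsg.Agent.BlockLib

namespace CA

open Cfsg Cfsg.FusionSystem Cfsg.Agent.Fus

universe u v

local notation "C(" P ")" => Subgroup.centralizer (SetLike.coe P)
local notation "N(" P ")" => Subgroup.normalizer (SetLike.coe P)

variable {k : Type v} [Field k] {G : Type u} [Group G] [Fintype G] [Split k G]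
variable {p : ℕ} [Fact p.Prime] [CharP k p]

omit [Fintype G] in
theorem range_eq_cjs {Q : Subgroup G} {φ : Q →* G} {g : G}
    (hg : ∀ u : Q, φ u = g * (u : G) * g⁻¹) : φ.range = cjs g Q := by
  ext x
  constructor
  · rintro ⟨u, rfl⟩
    exact ⟨u, u.2, (hg u).symm⟩
  · rintro ⟨u, hu, rfl⟩
    exact ⟨⟨u, hu⟩, hg ⟨u, hu⟩⟩

/-- The fusion system of a Brauer pair `(P, e)`. -/
def pairFus {P : Subgroup G} {e : CA k G} (hPe : IsBP p P e) : FusionSystem P where
  Hom Q := {φ | ∃ (g : G) (f : CA k G), (∀ u : Q, φ u = g * (u : G) * g⁻¹) ∧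
    SubLE p (Q, f) (P, e) ∧ SubLE p (cjs g Q, cj g f) (P, e)}
  le_of_mem := by
    rintro Q φ ⟨g, f, hg, h1, h2⟩
    refine ⟨h1.le, fun x => ?_⟩
    rw [hg]
    exact h2.le ⟨x, x.2, rfl⟩
  injective_of_mem := by
    rintro Q φ ⟨g, f, hg, -, -⟩ a b hab
    have h : g * (a : G) * g⁻¹ = g * (b : G) * g⁻¹ := ((hg a).symm.trans hab).trans (hg b)
    exact Subtype.ext (mul_left_cancel (mul_right_cancel h))
  conj_mem := by
    intro Q g hQ hg
    obtain ⟨f, hf⟩ := exists_subLE hPe Q hQ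
    refine ⟨g, f, fun u => rfl, hf, ?_⟩
    have h1 := hf.cj g
    have h2 := le_stab_self hPe.2.mem.1 hg
    simp only [cjs_eq_of_mem_normalizer h2.1, h2.2] at h1
    exact h1
  comp_mem := by
    rintro Q R φ ψ ⟨g, f, hg, h1, h2⟩ ⟨h, f', hh, h3, h4⟩ hQR
    refine ⟨h * g, f, fun u => ?_, h1, ?_⟩
    · show ψ (φ.codRestrict R hQR u) = _
      rw [hh]
      show h * φ u * h⁻¹ = _
      rw [hg, mul_inv_rev]
      simp only [mul_assoc]
    · have hle : cjs g Q ≤ R := by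
        rintro _ ⟨u, hu, rfl⟩
        have := hQR ⟨u, hu⟩
        rwa [hg] at this
      obtain ⟨f'', h5, h6⟩ := h2.exists_mid hPe hle h3.le
      have h7 : f'' = f' := SubLE.unique hPe h6 h3
      rw [h7] at h5
      have h8 := (h5.cj h).trans h4
      simp only [cjs_cjs, ← cj_mul] at h8
      exact h8
  inv_mem := by
    rintro Q φ ⟨g, f, hg, h1, h2⟩
    have hr : φ.range = cjs g Q := range_eq_cjs hg
    refine ⟨conjHom φ.range g⁻¹, ⟨g⁻¹, cj g f, fun u => rfl, ?_, ?_⟩, fun x => ?_⟩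
    · rw [hr]
      exact h2
    · rw [hr, cjs_inv_cjs, ← cj_mul, inv_mul_cancel, cj_one]
      exact h1
    · show g⁻¹ * φ x * g⁻¹⁻¹ = x
      rw [hg, inv_inv]
      simp only [mul_assoc, inv_mul_cancel, mul_one, inv_mul_cancel_left]

theorem mem_pairFus_hom {P : Subgroup G} {e : CA k G} (hPe : IsBP p P e) {Q : Subgroup G}
    {f : CA k G} (hle : SubLE p (Q, f) (P, e)) (φ : Q →* G) :
    φ ∈ (pairFus hPe).Hom Q ↔ ∃ g : G, (∀ u : Q, φ u = g * (u : G) * g⁻¹) ∧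
      SubLE p (cjs g Q, cj g f) (P, e) := by
  constructor
  · rintro ⟨g, f', hg, h1, h2⟩
    rw [SubLE.unique hPe h1 hle] at h2
    exact ⟨g, hg, h2⟩
  · rintro ⟨g, hg, h2⟩
    exact ⟨g, f, hg, hle, h2⟩

theorem autGroup_pairFus {P : Subgroup G} {e : CA k G} (hPe : IsBP p P e) {Q : Subgroup G}
    {f : CA k G} (hle : SubLE p (Q, f) (P, e)) :
    (pairFus hPe).autGroup Q = autInducedBy (stab Q f) Q := by
  ext α
  rw [mem_autGroup_iff _ hle.le, mem_autInducedBy_iff]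
  unfold IsMor
  rw [mem_pairFus_hom hPe hle]
  constructor
  · rintro ⟨g, hg, h⟩
    have hgN : g ∈ N(Q) := mem_normalizer_of_induces α hg
    refine ⟨g, ⟨hgN, ?_⟩, hg⟩
    rw [cjs_eq_of_mem_normalizer hgN] at h
    exact SubLE.unique hPe h hle
  · rintro ⟨g, hg, h⟩
    refine ⟨g, h, ?_⟩
    rw [cjs_eq_of_mem_normalizer hg.1, hg.2]
    exact hle

omit [Fintype G] in
theorem autInducedBy_inf_normalizer (K Q : Subgroup G) :
    autInducedBy (K ⊓ N(Q)) Q = autInducedBy K Q := by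
  ext α
  rw [mem_autInducedBy_iff, mem_autInducedBy_iff]
  constructor
  · rintro ⟨g, hg, h⟩
    exact ⟨g, hg.1, h⟩
  · rintro ⟨g, hg, h⟩
    exact ⟨g, ⟨hg, mem_normalizer_of_induces α h⟩, h⟩

/-- The image of a `p`-subgroup `A` with `A ker f` of index prime to `p` is a Sylow subgroup of
the image. -/
theorem isSylowIn_map_of_not_dvd {X Y : Type*} [Group X] [Group Y] {q : ℕ} [Fact q.Prime]
    (f : X →* Y) {A : Subgroup X} (hA : IsPGroup q A) (hidx : ¬ q ∣ (A ⊔ f.ker).index) :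
    IsSylowIn q (A.map f) f.range := by
  have h1 : IsPGroup q (A.map f.rangeRestrict) := hA.map _
  have h2 : ¬ q ∣ (A.map f.rangeRestrict).index := by
    rw [Subgroup.index_map, MonoidHom.ker_rangeRestrict, MonoidHom.rangeRestrict_surjective f |>
      MonoidHom.range_eq_top.mpr, Subgroup.index_top, mul_one]
    exact hidx
  refine ⟨h1.toSylow h2, ?_⟩
  rw [IsPGroup.toSylow_coe]
  ext y
  rw [Subgroup.mem_subgroupOf]
  constructor
  · rintro ⟨x, hx, rfl⟩
    exact ⟨x, hx, rfl⟩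
  · rintro ⟨x, hx, hxy⟩
    exact ⟨x, hx, Subtype.ext hxy⟩

omit [Fintype G] in
theorem ker_conjAutHom (T Q : Subgroup G) :
    (conjAutHom T Q).ker = (C(Q)).subgroupOf (normalizerIn T Q) := by
  ext x
  rw [MonoidHom.mem_ker, Subgroup.mem_subgroupOf, Subgroup.mem_centralizer_iff]
  constructor
  · intro h y hy
    have h1 : ((conjAutHom T Q x ⟨y, hy⟩ : Q) : G) = y := by rw [h]; rfl
    have h2 : (x : G) * y * (x : G)⁻¹ = y := h1
    calc y * (x : G) = (x : G) * y * (x : G)⁻¹ * x := by rw [h2]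
      _ = x * y := by group
  · intro h
    ext y
    show (x : G) * y * (x : G)⁻¹ = y
    rw [← h y y.2]
    group

theorem isFullyAutomized_pairFus {P : Subgroup G} {e : CA k G} (hPe : IsBP p P e) {Q : Subgroup G}
    {f : CA k G} (hle : SubLE p (Q, f) (P, e)) (hD : IsDefGrp p (stab Q f) f (P ⊓ N(Q))) :
    (pairFus hPe).IsFullyAutomized p Q := by
  refine ⟨hle.le, ?_⟩
  have hQf : IsBP p Q f := hle.isBP hPe
  rw [autGroup_pairFus hPe hle]
  have hST : P ⊓ N(Q) ≤ stab Q f := hle.inf_normalizer_le_stab hPe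
  have hT : normalizerIn (stab Q f) Q = stab Q f := inf_eq_left.mpr (stab_le_normalizer Q f)
  have hS : normalizerIn (P ⊓ N(Q)) Q = P ⊓ N(Q) := inf_eq_left.mpr inf_le_right
  have hidx := not_dvd_relIndex_of_isDefGrp (centralizer_le_stab hQf.2.mem)
    (stab_le_normalizer_centralizer Q f) hQf.2 hQf.relData_stab.isBlk hD
  have key := isSylowIn_map_of_not_dvd (q := p) (conjAutHom (stab Q f) Q)
    (A := (normalizerIn (P ⊓ N(Q)) Q).subgroupOf (normalizerIn (stab Q f) Q)) ?_ ?_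
  · rw [conjAutHom_range, conjAutHom_map hST, autInducedBy_inf_normalizer] at key
    exact key
  · rw [hS]
    exact (hPe.1.to_le inf_le_left).comap_subtype
  · rw [ker_conjAutHom, ← Subgroup.subgroupOf_sup (by rw [hS, hT]; exact hST)
      (by rw [hT]; exact centralizer_le_stab hQf.2.mem), hS]
    show ¬ p ∣ (P ⊓ N(Q) ⊔ C(Q)).relIndex (normalizerIn (stab Q f) Q)
    rw [hT]
    exact hidx

omit [Split k G] [Fact p.Prime] [CharP k p] in
theorem IsRelMax.mono {H H' R : Subgroup G} {g : CA k G} (h : IsRelMax p H R g) (hH : H' ≤ H) :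
    IsRelMax p H' R g :=
  fun S g' hS hSg hle => h S g' (hS.trans hH) hSg hle

theorem isReceptive_pairFus {P : Subgroup G} {e : CA k G} (hPe : IsBP p P e) {Q : Subgroup G}
    {f : CA k G} (hle : SubLE p (Q, f) (P, e)) (hD : IsDefGrp p (stab Q f) f (P ⊓ N(Q))) :
    (pairFus hPe).IsReceptive Q := by
  refine ⟨hle.le, ?_⟩
  have hQf : IsBP p Q f := hle.isBP hPe
  rintro R φ ⟨g, fR, hφ, hR1, hR2⟩ hr
  have hrQ : cjs g R = Q := by rw [← hr, range_eq_cjs hφ]
  rw [hrQ] at hR2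
  have hfR : cj g fR = f := SubLE.unique hPe hR2 hle
  have hQmem : ∀ y ∈ Q, ∃ x : R, y = g * x * g⁻¹ := by
    intro y hy
    rw [← hr] at hy
    obtain ⟨x, rfl⟩ := hy
    exact ⟨x, hφ x⟩
  have hPQ : ∀ x : R, g * (x : G) * g⁻¹ ∈ Q := by
    intro x
    rw [← hr, ← hφ x]
    exact ⟨x, rfl⟩
  set E := extender P R φ with hE
  have hEP : E ≤ P := (extender_le_normalizerIn φ).trans normalizerIn_le
  have hRE : R ≤ E := by
    intro x hx
    rw [hE, mem_extender_iff]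
    refine ⟨hR1.le hx, Subgroup.le_normalizer hx, φ ⟨x, hx⟩, ?_, fun y hy => ?_⟩
    · rw [hφ]
      exact hle.le (hPQ ⟨x, hx⟩)
    · rw [hφ, hφ, hφ]
      simp only
      group
  have hK : cjs g E ≤ (P ⊓ N(Q)) ⊔ C(Q) := by
    rintro _ ⟨x, hx, rfl⟩
    obtain ⟨hxT, hxN, h, hhT, hh⟩ := (mem_extender_iff φ x).1 hx
    have hh' : ∀ y : R, g * (x * y * x⁻¹) * g⁻¹ = h * (g * y * g⁻¹) * h⁻¹ := by
      intro y
      have h1 := hh y (conj_mem_of_normalizer hxN y.2)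
      rw [hφ, hφ] at h1
      exact h1
    have hhN : h ∈ P ⊓ N(Q) := by
      refine Subgroup.mem_inf.mpr ⟨hhT, ?_⟩
      rw [Subgroup.mem_normalizer_iff]
      intro z
      constructor
      · intro hz
        obtain ⟨y, rfl⟩ := hQmem z hz
        rw [← hh' y]
        exact hPQ ⟨_, conj_mem_of_normalizer hxN y.2⟩
      · intro hz
        obtain ⟨y, hy⟩ := hQmem _ hz
        have hy2 : x⁻¹ * (y : G) * x ∈ R := by
          have := conj_mem_of_normalizer (Subgroup.inv_mem _ hxN) y.2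
          simpa using this
        have h2 := hh' ⟨_, hy2⟩
        have h3 : g * (x * (x⁻¹ * (y : G) * x) * x⁻¹) * g⁻¹ = g * y * g⁻¹ := by group
        simp only at h2
        rw [h3, ← hy] at h2
        have h4 : z = g * (x⁻¹ * ↑y * x) * g⁻¹ := mul_left_cancel (mul_right_cancel h2)
        rw [h4]
        exact hPQ ⟨_, hy2⟩
    have hc : h⁻¹ * (g * x * g⁻¹) ∈ C(Q) := by
      rw [Subgroup.mem_centralizer_iff]
      intro z hz
      obtain ⟨y, rfl⟩ := hQmem z hz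
      have h2 := hh' y
      calc g * ↑y * g⁻¹ * (h⁻¹ * (g * x * g⁻¹))
          = h⁻¹ * (h * (g * ↑y * g⁻¹) * h⁻¹) * (g * x * g⁻¹) := by group
        _ = h⁻¹ * (g * (x * y * x⁻¹) * g⁻¹) * (g * x * g⁻¹) := by rw [h2]
        _ = h⁻¹ * (g * x * g⁻¹) * (g * ↑y * g⁻¹) := by group
    have h5 : (MulAut.conj g).toMonoidHom x = h * (h⁻¹ * (g * x * g⁻¹)) := by
      show g * x * g⁻¹ = _
      group
    rw [h5]
    exact Subgroup.mul_mem _ (Subgroup.mem_sup_left hhN) (Subgroup.mem_sup_right hc)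
  -- the pairs
  obtain ⟨fE, hE1, hE2⟩ := hR1.exists_mid hPe hRE hEP
  have hE1' := hE1.cj g
  simp only [hrQ, hfR] at hE1'
  have hS₂ : P ⊓ N(Q) ≤ stab Q f := hle.inf_normalizer_le_stab hPe
  obtain ⟨e₂, h21, h22⟩ := hle.exists_mid hPe (le_inf hle.le Subgroup.le_normalizer)
    (inf_le_left : P ⊓ N(Q) ≤ P)
  have hrel : RelData p Q f ((P ⊓ N(Q)) ⊔ C(Q)) :=
    ⟨hQf, (le_inf hle.le Subgroup.le_normalizer).trans le_sup_left, le_sup_right,
      sup_le hS₂ (centralizer_le_stab hQf.2.mem)⟩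
  have hmax : IsRelMax p ((P ⊓ N(Q)) ⊔ C(Q)) (P ⊓ N(Q)) e₂ :=
    (hQf.relData_stab.isRelMax_of_isDefGrp h21 hD).mono hrel.les
  obtain ⟨x, hx, hx2⟩ := (hrel.main le_sup_left h21 hmax).2 _ _ hK hE1'
  obtain ⟨n, hn, c, hc, rfl⟩ := (GrpAux.mem_sup_iff_of_le_normalizer
    (inf_le_right.trans (normalizer_le_normalizer_centralizer Q))).mp hx
  have h2bp : IsBP p (P ⊓ N(Q)) e₂ := h22.isBP hPe
  have hn' : n⁻¹ ∈ stab (P ⊓ N(Q)) e₂ := Subgroup.inv_mem _ (le_stab_self h2bp.2.mem.1 hn)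
  have hx3 := hx2.cj n⁻¹
  simp only [cjs_cjs, ← cj_mul, cjs_eq_of_mem_normalizer hn'.1, hn'.2] at hx3
  have hmul : n⁻¹ * (n * c * g) = c * g := by group
  rw [hmul] at hx3
  refine ⟨conjHom E (c * g), ⟨c * g, fE, fun u => rfl, hE2, hx3.trans h22⟩, fun x hxP hxN => ?_⟩
  show c * g * x * (c * g)⁻¹ = φ ⟨x, hxP⟩
  rw [hφ]
  have h1 := (Subgroup.mem_centralizer_iff.mp hc) _ (hPQ ⟨x, hxP⟩)
  simp only at h1
  calc c * g * x * (c * g)⁻¹ = c * (g * x * g⁻¹) * c⁻¹ := by group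
    _ = g * x * g⁻¹ * c * c⁻¹ := by rw [h1]
    _ = g * x * g⁻¹ := by group

/-- The fusion system of a maximal Brauer pair is saturated. -/
theorem IsMaxBP.isSaturated_pairFus {b e : CA k G} {P : Subgroup G} (h : IsMaxBP p b P e) :
    (pairFus h.1.1).IsSaturated p := by
  intro Q hQ
  have hPe : IsBP p P e := h.1.1
  obtain ⟨f, hf⟩ := exists_subLE hPe Q hQ
  have hQf : IsBP p Q f := hf.isBP hPe
  obtain ⟨y, hy, hD⟩ := h.exists_conj_isDefGrp hf le_rfl hQf.relData_stab.isBlk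
  rw [← stab_cjs, hy.inf_stab hPe] at hD
  refine ⟨cjs y Q, ⟨conjHom Q y, (mem_pairFus_hom hPe hf _).mpr ⟨y, fun u => rfl, hy⟩,
    range_eq_cjs fun u => rfl⟩, isFullyAutomized_pairFus hPe hy hD, isReceptive_pairFus hPe hy hD⟩

end CA

end Cfsg.Agent.BlockLib
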