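import Cfsg.Agent.BlockLib.KG.DictPairs

/-!
# Brauer's first main theorem, also over a subgroup `H ⊇ N_G(P)`
-/

set_option autoImplicit false

namespace Cfsg.Agent.BlockLib

namespace CA

universe u v

local notation "C(" P ")" => Subgroup.centralizer (SetLike.coe P)
local notation "N(" P ")" => Subgroup.normalizer (SetLike.coe P)

variable {k : Type v} [Field k] {G : Type u} [Group G] [Fintype G] [Split k G]
variable {p : ℕ} [Fact p.Prime] [CharP k p]

omit [Split k G] in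
theorem br_mem_cen_normalizer {P : Subgroup G} {b : CA k G} (hb : b ∈ fix N(P)) :
    br P b ∈ cen N(P) :=
  ⟨supp_mono (centralizer_le_normalizer' P) (br_mem_supp P b), br_mem_fix le_rfl hb⟩

omit [Split k G] in
theorem IsBlk.eq_of_br_eq {P H : Subgroup G} (hP : IsPGroup p P) (hPH : P ≤ H) {c c' : CA k G}
    (hc : IsBlk H c) (hc' : IsBlk H c') (hne : br P c ≠ 0) (h : br P c = br P c') : c = c' := by
  apply hc.eq_of_mul_ne_zero hc'
  intro h0
  apply hne
  have h1 := br_mul hP (fix_anti hPH hc.mem.2) (fix_anti hPH hc'.mem.2)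
  rw [h0, map_zero, ← h, br_idem hP (fix_anti hPH hc.mem.2) hc.idem] at h1
  exact h1.symm

theorem le_of_isDefGrp_normalizer {P : Subgroup G} {ft : CA k G} (hft : IsBlk N(P) ft)
    (hD : IsDefGrp p N(P) ft P) {R : Subgroup G} (hR : IsPGroup p R) (hRN : R ≤ N(P))
    (hbr : br R ft ≠ 0) : R ≤ P := by
  obtain ⟨x, hx, hle⟩ := (hD.br_ne_zero_iff hft hR hRN).mp hbr
  rwa [cjs_eq_of_mem_normalizer hx] at hle

theorem fm1 {P : Subgroup G} {b : CA k G} (hb : IsBlk ⊤ b) (hD : IsDefGrp p ⊤ b P) :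
    IsBlk N(P) (br P b) ∧ IsDefGrp p N(P) (br P b) P := by
  have hP : IsPGroup p P := hD.isPGroup
  have hbr : br P b ≠ 0 := hD.br_ne_zero hb
  have hfix : ∀ S : Subgroup G, b ∈ fix S := fun S => fix_anti le_top hb.mem.2
  have hmem : br P b ∈ cen N(P) := br_mem_cen_normalizer (hfix _)
  obtain ⟨ft, hft, hftb⟩ := exists_blk_of_idem hmem (br_idem hP (hfix _) hb.idem) hbr
  obtain ⟨D₁, hD₁⟩ := exists_isDefGrp (p := p) hft
  have hsupp := idem_mem_supp_centralizer hP Subgroup.le_normalizer le_rfl hft.mem hft.idem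
  have hPD : P ≤ D₁ := by
    obtain ⟨x, hx, hle⟩ := (hD₁.br_ne_zero_iff hft hP Subgroup.le_normalizer).mp
      (by rw [br_eq_self hsupp]; exact hft.ne_zero)
    rw [le_cjs_iff, cjs_eq_of_mem_normalizer (Subgroup.inv_mem _ hx)] at hle
    exact hle
  have h1 : br D₁ b ≠ 0 := by
    intro h0
    apply hD₁.br_ne_zero hft
    rw [← hftb, br_mul hD₁.isPGroup (fix_anti hD₁.le hft.mem.2) (fix_anti hD₁.le hmem.2),
      br_br hPD, h0, mul_zero]
  obtain ⟨y, -, hy⟩ := (hD.br_ne_zero_iff hb hD₁.isPGroup le_top).mp h1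
  have hPD' : P = D₁ := by
    apply Subgroup.eq_of_le_of_card_ge hPD
    have := Subgroup.card_le_of_le hy
    rwa [card_cjs] at this
  rw [← hPD'] at hD₁
  have h2 := (first_main_aux hP hft (fun R hR hRN hbr' => le_of_isDefGrp_normalizer hft hD₁ hR hRN hbr')
    hb (by rw [cen_comm hmem hft.mem, hftb])).2
  rw [h2]
  exact ⟨hft, hD₁⟩

theorem fm2 {P : Subgroup G} {ft : CA k G} (hft : IsBlk N(P) ft) (hD : IsDefGrp p N(P) ft P) :
    ∃ b, IsBlk ⊤ b ∧ IsDefGrp p ⊤ b P ∧ br P b = ft := by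
  have hP : IsPGroup p P := hD.isPGroup
  have hfix : ∀ b ∈ blks (k := k) (⊤ : Subgroup G), ∀ S : Subgroup G, b ∈ fix S :=
    fun b hb S => fix_anti le_top (mem_blks.mp hb).mem.2
  obtain ⟨b, hb, hbf, -⟩ := exists_unique_of_decomp hft (blks (⊤ : Subgroup G)) (fun b => br P b)
    (by rw [← map_sum, sum_blks, br_one])
    (fun b hb => br_mem_cen_normalizer (hfix b hb _))
    (fun b hb => br_idem hP (hfix b hb _) (mem_blks.mp hb).idem)
    (fun b hb b' hb' hne => by
      rw [← br_mul hP (hfix b hb _) (hfix b' hb' _),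
        (mem_blks.mp hb).mul_eq_zero_of_ne (mem_blks.mp hb') hne, map_zero])
  have hb' := mem_blks.mp hb
  obtain ⟨h1, h2⟩ := first_main_aux hP hft
    (fun R hR hRN hbr' => le_of_isDefGrp_normalizer hft hD hR hRN hbr') hb' hbf
  refine ⟨b, hb', ?_, h2⟩
  apply isDefGrp_of_forall hb' hP le_top (by rw [h2]; exact hft.ne_zero)
  intro S hS _ hbr
  obtain ⟨x, hx⟩ := h1 S hS hbr
  exact ⟨x, trivial, hx⟩

theorem rel_fm1 {P H : Subgroup G} (hH : N(P) ≤ H) {c : CA k G} (hc : IsBlk H c)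
    (hD : IsDefGrp p H c P) : IsBlk N(P) (br P c) ∧ IsDefGrp p N(P) (br P c) P := by
  haveI : Fintype H := Fintype.ofFinite H
  haveI : Split k H := split_subgroup H
  have hPH : P ≤ H := Subgroup.le_normalizer.trans hH
  have hce : ext0 H (res H c) = c := ext0_res H hc.mem.1
  have hc' : IsBlk (⊤ : Subgroup H) (res H c) := isBlk_res H hc
  have hD' : IsDefGrp p (⊤ : Subgroup H) (res H c) (P.subgroupOf H) := by
    rw [← isDefGrp_ext0_iff H hc', up_top, up_subgroupOf hPH, hce]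
    exact hD
  obtain ⟨h1, h2⟩ := fm1 hc' hD'
  have hN : up H N(P.subgroupOf H) = N(P) := by
    rw [up_normalizer, up_subgroupOf hPH, inf_eq_right.mpr hH]
  rw [← isDefGrp_ext0_iff H h1, hN, up_subgroupOf hPH, ext0_br, up_subgroupOf hPH, hce] at h2
  rw [← isBlk_ext0_up_iff H, hN, ext0_br, up_subgroupOf hPH, hce] at h1
  exact ⟨h1, h2⟩

theorem rel_fm2 {P H : Subgroup G} (hH : N(P) ≤ H) {ft : CA k G} (hft : IsBlk N(P) ft)
    (hD : IsDefGrp p N(P) ft P) : ∃ c, IsBlk H c ∧ IsDefGrp p H c P ∧ br P c = ft := by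
  haveI : Fintype H := Fintype.ofFinite H
  haveI : Split k H := split_subgroup H
  have hPH : P ≤ H := Subgroup.le_normalizer.trans hH
  have hfe : ext0 H (res H ft) = ft := ext0_res H (supp_mono hH hft.mem.1)
  have hN : up H N(P.subgroupOf H) = N(P) := by
    rw [up_normalizer, up_subgroupOf hPH, inf_eq_right.mpr hH]
  have hft' : IsBlk N(P.subgroupOf H) (res H ft) := by
    rw [← isBlk_ext0_up_iff H, hN, hfe]
    exact hft
  have hD' : IsDefGrp p N(P.subgroupOf H) (res H ft) (P.subgroupOf H) := by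
    rw [← isDefGrp_ext0_iff H hft', hN, up_subgroupOf hPH, hfe]
    exact hD
  obtain ⟨c', hc', hDc', hbr⟩ := fm2 hft' hD'
  refine ⟨ext0 H c', isBlk_ext0 H hc', ?_, ?_⟩
  · rw [← isDefGrp_ext0_iff H hc', up_top, up_subgroupOf hPH] at hDc'
    exact hDc'
  · have := congrArg (ext0 H) hbr
    rwa [ext0_br, up_subgroupOf hPH, hfe] at this

end CA

end Cfsg.Agent.BlockLib
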