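import Cfsg.Agent.BlockLib.KG.Knorr2
import Cfsg.Agent.BlockLib.KG.FirstMain

/-!
# The Harris–Knörr correspondence, at the level of idempotents
-/

set_option autoImplicit false

namespace Cfsg.Agent.BlockLib

namespace CA

universe u v

local notation "C(" P ")" => Subgroup.centralizer (SetLike.coe P)
local notation "N(" P ")" => Subgroup.normalizer (SetLike.coe P)

variable {k : Type v} [Field k] {G : Type u} [Group G] [Fintype G] [Split k G]
variable {p : ℕ} [Fact p.Prime] [CharP k p]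

/-- Brauer's first main theorem inside an arbitrary subgroup `A`. -/
theorem sub_fm1 {P A : Subgroup G} {c : CA k G} (hc : IsBlk A c) (hD : IsDefGrp p A c P) :
    IsBlk (A ⊓ N(P)) (br P c) ∧ IsDefGrp p (A ⊓ N(P)) (br P c) P := by
  haveI : Fintype A := Fintype.ofFinite A
  haveI : Split k A := split_subgroup A
  have hPA : P ≤ A := hD.le
  have hce : ext0 A (res A c) = c := ext0_res A hc.mem.1
  have hc' : IsBlk (⊤ : Subgroup A) (res A c) := isBlk_res A hc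
  have hD' : IsDefGrp p (⊤ : Subgroup A) (res A c) (P.subgroupOf A) := by
    rw [← isDefGrp_ext0_iff A hc', up_top, up_subgroupOf hPA, hce]
    exact hD
  obtain ⟨h1, h2⟩ := fm1 hc' hD'
  have hN : up A N(P.subgroupOf A) = A ⊓ N(P) := by
    rw [up_normalizer, up_subgroupOf hPA]
  rw [← isDefGrp_ext0_iff A h1, hN, up_subgroupOf hPA, ext0_br, up_subgroupOf hPA, hce] at h2
  rw [← isBlk_ext0_up_iff A, hN, ext0_br, up_subgroupOf hPA, hce] at h1
  exact ⟨h1, h2⟩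

section HK

variable {N Q : Subgroup G} [hN : N.Normal] {d : CA k G}

omit [Split k G] in
/-- A block `b` of `G` with `Br_Q(b) c = c` for a block `c` of `N_G(Q)` covering `Br_Q(d)`
covers `d`. -/
theorem hk_covers (hQ : IsPGroup p Q) (hQN : Q ≤ N) (hd : IsBlk N d) {c b : CA k G}
    (hc : IsBlk N(Q) c) (hce : c * br Q d ≠ 0) (hb : IsBlk ⊤ b) (hbc : br Q b * c = c) :
    b * d ≠ 0 := by
  intro h0
  apply hce
  have h1 : br Q b ∈ cen N(Q) := br_mem_cen_normalizer (fix_anti le_top hb.mem.2)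
  have h2 : br Q b * br Q d = 0 := by
    rw [← br_mul hQ (fix_anti le_top hb.mem.2) (fix_anti hQN hd.mem.2), h0, map_zero]
  rw [← hbc, cen_comm h1 hc.mem, mul_assoc, h2, mul_zero]

/-- Existence in the Harris–Knörr correspondence. -/
theorem hk_exists (hQ : IsPGroup p Q) (hQN : Q ≤ N) (hd : IsBlk N d) (hbr : br Q d ≠ 0)
    {b : CA k G} (hb : IsBlk ⊤ b) (hbd : b * d ≠ 0) :
    ∃ c, IsBlk N(Q) c ∧ c * br Q d ≠ 0 ∧ br Q b * c = c := by
  have hNn : (⊤ : Subgroup G) ≤ N(N) := by rw [Subgroup.normalizer_eq_top]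
  obtain ⟨hb', -⟩ := isBlk_mul_of_ne_zero le_top hNn hd hb hbd
  have h1 : br Q (b * d) ≠ 0 :=
    br_ne_zero_of_mul_eq (le_inf_stab le_top hd) (inf_le_left.trans hNn) hd hb'.mem hb'.idem
      (by rw [mul_assoc, hd.idem]) hbd hQ hQN hbr
  rw [br_mul hQ (fix_anti le_top hb.mem.2) (fix_anti hQN hd.mem.2)] at h1
  obtain ⟨c, hc, hne⟩ := exists_blk_mul_ne_zero N(Q) h1
  have h2 : br Q b ∈ cen N(Q) := br_mem_cen_normalizer (fix_anti le_top hb.mem.2)
  have h3 : br Q b * br Q b = br Q b := br_idem hQ (fix_anti le_top hb.mem.2) hb.idem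
  have h4 : c * br Q b = c := by
    refine (hc.prim _ h2 h3).resolve_right fun h0 => hne ?_
    rw [← mul_assoc, h0, zero_mul]
  refine ⟨c, hc, ?_, by rw [cen_comm h2 hc.mem, h4]⟩
  rwa [← mul_assoc, h4] at hne

/-- Auxiliary: a block `c` of `H ≥ N_G(D)` with defect group `D ≥ Q` and `Br_Q(b) c = c`
satisfies `Br_D(c) = Br_D(b)`, and `D` is a defect group of `b`. -/
theorem br_eq_of_br_mul_eq {H D : Subgroup G} (hH : N(D) ≤ H) (hHQ : H ≤ N(Q)) (hQD : Q ≤ D)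
    {c b : CA k G} (hc : IsBlk H c) (hD : IsDefGrp p H c D) (hb : IsBlk ⊤ b)
    (hbc : br Q b * c = c) : IsDefGrp p ⊤ b D ∧ br D c = br D b := by
  obtain ⟨h1, h2⟩ := rel_fm1 hH hc hD
  obtain ⟨b₁, hb₁, hD₁, hbr₁⟩ := fm2 h1 h2
  have hDp := hD.isPGroup
  have hfixb : b ∈ fix D := fix_anti le_top hb.mem.2
  have h3 : br D b * br D c = br D c := by
    have h4 : br Q b ∈ fix D := fix_anti hD.le (br_mem_fix hHQ (fix_anti le_top hb.mem.2))
    have := congrArg (br D) hbc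
    rwa [br_mul hDp h4 (fix_anti hD.le hc.mem.2), br_br hQD] at this
  have h5 : b = b₁ := by
    apply hb.eq_of_mul_ne_zero hb₁
    intro h0
    apply h1.ne_zero
    rw [← h3, ← hbr₁, ← br_mul hDp hfixb (fix_anti le_top hb₁.mem.2), h0, map_zero]
  rw [h5]
  exact ⟨hD₁, hbr₁.symm⟩

/-- Uniqueness in the Harris–Knörr correspondence. -/
theorem hk_unique (hQN : Q ≤ N) {e : CA k G} (he : IsBlk (N(Q) ⊓ N) e)
    (heQ : IsDefGrp p (N(Q) ⊓ N) e Q) {b : CA k G} (hb : IsBlk ⊤ b) {c c' : CA k G}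
    (hc : IsBlk N(Q) c) (hce : c * e ≠ 0) (hbc : br Q b * c = c)
    (hc' : IsBlk N(Q) c') (hce' : c' * e ≠ 0) (hbc' : br Q b * c' = c') : c = c' := by
  have hLn : N(Q) ≤ N(N(Q) ⊓ N) := by
    intro x hx
    apply mem_normalizer_of_cjs_eq
    rw [cjs_inf, cjs_eq_of_mem_normalizer (Subgroup.le_normalizer hx),
      cjs_eq_of_mem_normalizer (by rw [Subgroup.normalizer_eq_top]; trivial)]
  obtain ⟨D, hD, hDL, -⟩ := exists_isDefGrp_inf_eq inf_le_left hLn he hc hce heQ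
  obtain ⟨D', hD', hDL', -⟩ := exists_isDefGrp_inf_eq inf_le_left hLn he hc' hce' heQ
  have hinf : ∀ {E : Subgroup G}, E ≤ N(Q) → E ⊓ (N(Q) ⊓ N) = Q → E ⊓ N = Q := by
    intro E hE h
    rw [← h, ← inf_assoc, inf_eq_left.mpr hE]
  have hDN : D ⊓ N = Q := hinf hD.le hDL
  have hDN' : D' ⊓ N = Q := hinf hD'.le hDL'
  have hnorm : ∀ {E : Subgroup G}, E ⊓ N = Q → N(E) ≤ N(Q) := by
    intro E h x hx
    apply mem_normalizer_of_cjs_eq
    rw [← h, cjs_inf, cjs_eq_of_mem_normalizer hx,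
      cjs_eq_of_mem_normalizer (by rw [Subgroup.normalizer_eq_top]; trivial)]
  have hQD : Q ≤ D := by rw [← hDN]; exact inf_le_left
  have hQD' : Q ≤ D' := by rw [← hDN']; exact inf_le_left
  obtain ⟨h1, -⟩ := br_eq_of_br_mul_eq (hnorm hDN) le_rfl hQD hc hD hb hbc
  obtain ⟨h1', h2'⟩ := br_eq_of_br_mul_eq (hnorm hDN') le_rfl hQD' hc' hD' hb hbc'
  obtain ⟨g, -, rfl⟩ := h1.conj hb h1'
  have hg : g ∈ N(Q) := by
    apply mem_normalizer_of_cjs_eq
    have hgN : cjs g N = N :=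
      cjs_eq_of_mem_normalizer (by rw [Subgroup.normalizer_eq_top]; trivial)
    conv_lhs => rw [← hDN]
    rw [cjs_inf, hgN, hDN']
  have hD₂ : IsDefGrp p N(Q) c (cjs g D) := hD.cj hc hg
  obtain ⟨-, h2⟩ := br_eq_of_br_mul_eq (hnorm hDN') le_rfl hQD' hc hD₂ hb hbc
  exact hc.eq_of_br_eq hD₂.isPGroup hD₂.le hc' (hD₂.br_ne_zero hc) (h2.trans h2'.symm)

end HK

end CA

end Cfsg.Agent.BlockLib
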