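import Cfsg.Agent.BlockLib.KG.PReg
import Cfsg.Agent.BlockLib.KG.HarrisKnorr

/-!
# Stable blocks of normal subgroups containing the centralizer of a defect group;
stable blocks of `O_{p'}` in `p`-constrained groups
-/

set_option autoImplicit false

namespace Cfsg.Agent.BlockLib

namespace CA

universe u v

local notation "C(" P ")" => Subgroup.centralizer (SetLike.coe P)
local notation "N(" P ")" => Subgroup.normalizer (SetLike.coe P)

variable {k : Type v} [Field k] {G : Type u} [Group G] [Fintype G] [Split k G]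
variable {p : ℕ} [Fact p.Prime] [CharP k p]

theorem br_eq_of_centralizer_le {N H : Subgroup G} (hNH : N ≤ H) (hHN : H ≤ N(N)) {d ε : CA k G}
    (hd : IsBlk N d) {D : Subgroup G} (hD : IsDefGrp p N d D) (hC : H ⊓ C(D) ≤ N)
    (hε : ε ∈ cen H) (hεε : ε * ε = ε) (hεd : ε * d = ε) (hne : ε ≠ 0) : br D ε = br D d := by
  have hDp := hD.isPGroup
  have hDN := hD.le
  have h0 : br D ε ≠ 0 :=
    br_ne_zero_of_mul_eq hNH hHN hd hε hεε hεd hne hDp hDN (hD.br_ne_zero hd)
  have hεD : ε ∈ fix D := fix_anti (hDN.trans hNH) hε.2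
  have hdD : d ∈ fix D := fix_anti hDN hd.mem.2
  have h1 : br D ε ∈ cen (N ⊓ N(D)) := by
    refine ⟨?_, br_mem_fix inf_le_right (fix_anti (inf_le_left.trans hNH) hε.2)⟩
    intro g hg
    by_cases hgC : g ∈ C(D)
    · rw [br_apply_of_mem _ hgC]
      apply hε.1
      intro hgH
      exact hg ⟨hC ⟨hgH, hgC⟩, centralizer_le_normalizer' D hgC⟩
    · exact br_apply_of_not_mem _ hgC
  have h2 : br D ε * br D ε = br D ε := br_idem hDp hεD hεε
  have h3 := (sub_fm1 hd hD).1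
  have h4 : br D d * br D ε = br D ε := by
    rw [← br_mul hDp hdD hεD,
      ← commute_of_fix_of_supp hε.2 (supp_mono hNH hd.mem.1), hεd]
  rcases h3.prim _ h1 h2 with h5 | h5
  · rw [← h4, h5]
  · rw [h4] at h5
    exact absurd h5 h0

/-- `N ⊴ H`, `d` an `H`-stable block of `N` with a defect group `D` such that `C_H(D) ≤ N`: then
`d` is a block of `H`. -/
theorem IsBlk.of_centralizer_le {N H : Subgroup G} (hNH : N ≤ H) (hHN : H ≤ N(N)) {d : CA k G}
    (hd : IsBlk N d) (hfix : d ∈ fix H) {D : Subgroup G} (hD : IsDefGrp p N d D)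
    (hC : H ⊓ C(D) ≤ N) : IsBlk H d where
  mem := ⟨supp_mono hNH hd.mem.1, hfix⟩
  idem := hd.idem
  ne_zero := hd.ne_zero
  prim := fun c hc hcc => by
    have hdH : d ∈ cen H := ⟨supp_mono hNH hd.mem.1, hfix⟩
    have hcomm : d * c = c * d := cen_comm hdH hc
    by_contra hcon
    rw [not_or] at hcon
    obtain ⟨hne1, hne2⟩ := hcon
    have hDp := hD.isPGroup
    have e1 : br D (d * c) = br D d := by
      apply br_eq_of_centralizer_le hNH hHN hd hD hC ((cen H).mul_mem hdH hc) _ _ hne2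
      · calc d * c * (d * c) = d * (c * d) * c := by simp only [mul_assoc]
          _ = (d * d) * (c * c) := by rw [← hcomm]; simp only [mul_assoc]
          _ = d * c := by rw [hd.idem, hcc]
      · rw [hcomm, mul_assoc, hd.idem]
    have e2 : br D (d - d * c) = br D d := by
      apply br_eq_of_centralizer_le hNH hHN hd hD hC
        ((cen H).sub_mem hdH ((cen H).mul_mem hdH hc)) _ _ (sub_ne_zero.mpr (Ne.symm hne1))
      · have h1 : d * c * d = d * c := by rw [hcomm, mul_assoc, hd.idem]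
        have h2 : d * (d * c) = d * c := by rw [← mul_assoc, hd.idem]
        have h3 : d * c * (d * c) = d * c := by
          rw [← mul_assoc, h1, mul_assoc, hcc]
        rw [sub_mul, mul_sub, mul_sub, hd.idem, h2, h1, h3]
        abel
      · have h1 : d * c * d = d * c := by rw [hcomm, mul_assoc, hd.idem]
        rw [sub_mul, hd.idem, h1]
    have hfD : ∀ {a : CA k G}, a ∈ cen H → a ∈ fix D := fun ha =>
      fix_anti (hD.le.trans hNH) ha.2
    have h0 : (d * c) * (d - d * c) = 0 := by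
      have h1 : d * c * d = d * c := by rw [hcomm, mul_assoc, hd.idem]
      have h3 : d * c * (d * c) = d * c := by
        rw [← mul_assoc, h1, mul_assoc, hcc]
      rw [mul_sub, h1, h3, sub_self]
    have := congrArg (br D) h0
    rw [br_mul hDp (hfD ((cen H).mul_mem hdH hc))
      (hfD ((cen H).sub_mem hdH ((cen H).mul_mem hdH hc))), e1, e2, map_zero,
      br_idem hDp (hfD hdH) hd.idem] at this
    exact hD.br_ne_zero hd this

omit [Fintype G] in
/-- Dedekind-type lemma: `P₁ ≤ P₂ ≤ P₁ K` with `P₂` a `p`-group and `K` a `p'`-group. -/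
theorem le_of_le_sup_of_pprime {P₁ P₂ K : Subgroup G} (h12 : P₁ ≤ P₂) (hP₂ : IsPGroup p P₂)
    (hn : P₁ ≤ N(K)) (hK : ∀ x ∈ K, ¬ p ∣ orderOf x) (hle : P₂ ≤ P₁ ⊔ K) : P₂ ≤ P₁ := by
  intro q hq
  obtain ⟨a, ha, b, hb, rfl⟩ := (GrpAux.mem_sup_iff_of_le_normalizer hn).mp (hle hq)
  have hbP : b ∈ P₂ := by
    have := P₂.mul_mem (P₂.inv_mem (h12 ha)) hq
    rwa [inv_mul_cancel_left] at this
  obtain ⟨n, hn'⟩ := hP₂ ⟨b, hbP⟩
  have h1 : b ^ (p ^ n) = 1 := by
    have := congrArg Subtype.val hn'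
    simpa using this
  have h2 : orderOf b ∣ p ^ n := orderOf_dvd_of_pow_eq_one h1
  obtain ⟨j, -, hj⟩ := (Nat.dvd_prime_pow (Fact.out : p.Prime)).mp h2
  have hj0 : j = 0 := by
    by_contra hne
    exact hK b hb (by rw [hj]; exact dvd_pow_self p hne)
  rw [hj0, pow_zero, orderOf_eq_one_iff] at hj
  rw [hj, mul_one]
  exact ha

/-- `K ⊴ T` a `p'`-group containing the `p`-regular elements of `T`; a `T`-stable block of `K` is
a block of `T` having every Sylow `p`-subgroup of `T` as a defect group. -/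
theorem isDefGrp_of_isSylIn_of_preg [PReg k G p] {K T Q : Subgroup G} (hKT : K ≤ T)
    (hTK : T ≤ N(K)) (hK : ∀ x ∈ K, ¬ p ∣ orderOf x) (hreg : ∀ x ∈ T, ¬ p ∣ orderOf x → x ∈ K)
    (hQ : IsSylIn p Q T) {d : CA k G} (hd : IsBlk K d) (hfix : d ∈ fix T) :
    IsBlk T d ∧ IsDefGrp p T d Q := by
  have hdT : IsBlk T d := hd.of_preg hKT hreg hfix
  refine ⟨hdT, ?_⟩
  obtain ⟨D, hD⟩ := exists_isDefGrp (p := p) hdT
  obtain ⟨c, hc, hDc⟩ := hQ.exists_conj_le hD.isPGroup hD.le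
  have hD' : IsDefGrp p T d (cjs c⁻¹ D) := hD.cj hdT (T.inv_mem hc)
  have hle : cjs c⁻¹ D ≤ Q := le_cjs_iff.mp hDc
  have h1 := (le_sup_of_isDefGrp_of_preg hKT hTK hreg hd hdT hD').1
  have h2 : Q ≤ cjs c⁻¹ D :=
    le_of_le_sup_of_pprime hle hQ.1 (hD'.le.trans hTK) hK (hQ.2.1.trans h1)
  rwa [le_antisymm hle h2] at hD'

/-- `K ≤ L` normal in `H`, `K` a `p'`-group, `L/K` a `p`-group, `Q` a Sylow `p`-subgroup of `L` with
`C_H(Q) ≤ L`: an `H`-stable block of `K` is a block of `H`. -/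
theorem IsBlk.of_constrained [PReg k G p] {K L H Q : Subgroup G} (hKL : K ≤ L) (hLH : L ≤ H)
    (hHK : H ≤ N(K)) (hHL : H ≤ N(L)) (hK : ∀ x ∈ K, ¬ p ∣ orderOf x)
    (hreg : ∀ x ∈ L, ¬ p ∣ orderOf x → x ∈ K) (hQ : IsSylIn p Q L) (hC : H ⊓ C(Q) ≤ L)
    {d : CA k G} (hd : IsBlk K d) (hfix : d ∈ fix H) : IsBlk H d := by
  obtain ⟨h1, h2⟩ := isDefGrp_of_isSylIn_of_preg hKL (hLH.trans hHK) hK hreg hQ hd
    (fix_anti hLH hfix)
  exact IsBlk.of_centralizer_le hLH hHL h1 hfix h2 hC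

/-- A block of `G` which is a block of a normal `p'`-subgroup has Sylow defect groups. -/
theorem not_dvd_index_of_pprime {K : Subgroup G} [K.Normal] (hK : ¬ p ∣ Nat.card K) {d : CA k G}
    (hd : IsBlk K d) (hdG : IsBlk ⊤ d) {P : Subgroup G} (hP : IsDefGrp p ⊤ d P) :
    ¬ p ∣ P.index := by
  have h := not_dvd_index_of_isDefGrp hd hdG hP
  intro hdvd
  rw [← Subgroup.relIndex_mul_index (le_sup_left : P ≤ P ⊔ K)] at hdvd
  have h1 : p ∣ P.relIndex (P ⊔ K) :=
    ((Nat.Prime.dvd_mul (Fact.out : p.Prime)).mp hdvd).resolve_right h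
  apply hK
  have hrc : ∀ {A B : Subgroup G}, A ≤ B → A.relIndex B * Nat.card A = Nat.card B := by
    intro A B hAB
    have := (A.subgroupOf B).card_mul_index
    rw [Nat.card_congr (Subgroup.subgroupOfEquivOfLe hAB).toEquiv] at this
    rw [mul_comm]
    exact this
  have h2 : P.relIndex (P ⊔ K) * Nat.card P = Nat.card (P ⊔ K : Subgroup G) := hrc le_sup_left
  have h3 : K.relIndex (P ⊔ K) * Nat.card K = Nat.card (P ⊔ K : Subgroup G) := hrc le_sup_right
  rw [Subgroup.relIndex_sup_right] at h3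
  obtain ⟨m, hm⟩ : K.relIndex P ∣ Nat.card P := Subgroup.relIndex_dvd_card K P
  have h4 : K.relIndex P ≠ 0 := by
    intro h0
    rw [h0, zero_mul] at hm
    exact Nat.card_pos.ne' hm
  have h5 : P.relIndex (P ⊔ K) * m = Nat.card K := by
    apply Nat.eq_of_mul_eq_mul_left (Nat.pos_of_ne_zero h4)
    rw [h3, ← h2, hm]
    ring
  rw [← h5]
  exact Dvd.dvd.mul_right h1 m

omit [Fintype G] in
theorem eq_one_of_mem_of_pprime {R K : Subgroup G} (hR : IsPGroup p R)
    (hK : ∀ x ∈ K, ¬ p ∣ orderOf x) {b : G} (hbR : b ∈ R) (hbK : b ∈ K) : b = 1 := by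
  obtain ⟨n, hn'⟩ := hR ⟨b, hbR⟩
  have h1 : b ^ (p ^ n) = 1 := by
    have := congrArg Subtype.val hn'
    simpa using this
  have h2 : orderOf b ∣ p ^ n := orderOf_dvd_of_pow_eq_one h1
  obtain ⟨j, -, hj⟩ := (Nat.dvd_prime_pow (Fact.out : p.Prime)).mp h2
  have hj0 : j = 0 := by
    by_contra hne
    exact hK b hbK (by rw [hj]; exact dvd_pow_self p hne)
  rwa [hj0, pow_zero, orderOf_eq_one_iff] at hj

omit [Fintype G] in
/-- The `p`-regular elements of `R K` lie in `K`. -/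
theorem mem_of_mem_sup_of_preg {R K : Subgroup G} (hRK : R ≤ N(K)) (hR : IsPGroup p R) {x : G}
    (hx : x ∈ R ⊔ K) (hreg : ¬ p ∣ orderOf x) : x ∈ K := by
  obtain ⟨r, hr, c, hc, rfl⟩ := (GrpAux.mem_sup_iff_of_le_normalizer hRK).mp hx
  have hpow : ∀ n : ℕ, ∃ c' ∈ K, (r * c) ^ n = r ^ n * c' := by
    intro n
    induction n with
    | zero => exact ⟨1, K.one_mem, by simp⟩
    | succ n ih =>
      obtain ⟨c', hc', h⟩ := ih
      refine ⟨r⁻¹ * c' * r * c, K.mul_mem ?_ hc, ?_⟩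
      · have := (Subgroup.mem_normalizer_iff.mp (Subgroup.inv_mem _ (hRK hr)) c').mp hc'
        simpa using this
      · rw [pow_succ, h, pow_succ]
        group
  obtain ⟨n, hn'⟩ := hR ⟨r, hr⟩
  have h1 : r ^ (p ^ n) = 1 := by
    have := congrArg Subtype.val hn'
    simpa using this
  apply GrpAux.mem_of_pow_mem_of_coprime (a := p ^ n) (b := orderOf (r * c))
  · exact Nat.Coprime.pow_left _ ((Nat.Prime.coprime_iff_not_dvd (Fact.out : p.Prime)).mpr hreg)
  · obtain ⟨c', hc', h⟩ := hpow (p ^ n)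
    rw [h, h1, one_mul]
    exact hc'
  · rw [pow_orderOf_eq_one]
    exact K.one_mem

/-- The Glauberman correspondence at the level of block idempotents: for a `p`-group `R` acting on
the `p'`-group `K` and an `R`-stable block `d` of `K`, `Br_R(d)` is a block of `C_K(R)`. -/
theorem isBlk_br_of_pprime [PReg k G p] {K R : Subgroup G} (hRK : R ≤ N(K)) (hR : IsPGroup p R)
    (hK : ∀ x ∈ K, ¬ p ∣ orderOf x) {d : CA k G} (hd : IsBlk K d) (hfix : d ∈ fix R) :
    IsBlk (K ⊓ C(R)) (br R d) := by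
  have hKA : K ≤ R ⊔ K := le_sup_right
  have hAK : R ⊔ K ≤ N(K) := sup_le hRK Subgroup.le_normalizer
  have hfixA : d ∈ fix (R ⊔ K) := by
    refine fix_anti (sup_le ?_ ?_) (mem_fix_stab K d)
    · exact fun u hu => ⟨hRK hu, mem_fix_iff_cj.mp hfix u hu⟩
    · exact fun u hu => ⟨Subgroup.le_normalizer hu, mem_fix_iff_cj.mp hd.mem.2 u hu⟩
  have hSyl : IsSylIn p R (R ⊔ K) :=
    ⟨hR, le_sup_left, fun Q hQ hQA hRQ =>
      le_antisymm (le_of_le_sup_of_pprime hRQ hQ hRK hK hQA) hRQ⟩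
  obtain ⟨hdA, hDef⟩ := isDefGrp_of_isSylIn_of_preg hKA hAK hK
    (fun x hx hreg => mem_of_mem_sup_of_preg hRK hR hx hreg) hSyl hd hfixA
  have h1 := (sub_fm1 hdA hDef).1
  have hle : K ⊓ C(R) ≤ (R ⊔ K) ⊓ N(R) :=
    inf_le_inf hKA (centralizer_le_normalizer' R)
  refine ⟨⟨?_, fix_anti hle h1.mem.2⟩, h1.idem, h1.ne_zero, fun c hc hcc => ?_⟩
  · intro g hg
    by_cases hgC : g ∈ C(R)
    · rw [br_apply_of_mem _ hgC]
      exact hd.mem.1 g fun hgK => hg ⟨hgK, hgC⟩
    · exact br_apply_of_not_mem _ hgC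
  · apply h1.prim c ⟨supp_mono hle hc.1, ?_⟩ hcc
    apply mem_fix_iff_cj.mpr
    rintro u ⟨huA, huN⟩
    obtain ⟨r, hr, c', hc', rfl⟩ := (GrpAux.mem_sup_iff_of_le_normalizer hRK).mp huA
    have hc'N : c' ∈ N(R) := by
      have := Subgroup.mul_mem _ (Subgroup.inv_mem _ (Subgroup.le_normalizer hr)) huN
      rwa [inv_mul_cancel_left] at this
    have hc'C : c' ∈ C(R) := by
      rw [Subgroup.mem_centralizer_iff]
      intro s hs
      have hs' : s ∈ R := hs
      have e1 : c' * s * c'⁻¹ * s⁻¹ ∈ R :=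
        R.mul_mem ((Subgroup.mem_normalizer_iff.mp hc'N s).mp hs') (R.inv_mem hs')
      have e2 : c' * s * c'⁻¹ * s⁻¹ ∈ K := by
        have := K.mul_mem hc' ((Subgroup.mem_normalizer_iff.mp (hRK hs') c'⁻¹).mp (K.inv_mem hc'))
        simpa [mul_assoc] using this
      have e3 := eq_one_of_mem_of_pprime hR hK e1 e2
      calc s * c' = (c' * s * c'⁻¹ * s⁻¹)⁻¹ * (c' * s) := by group
        _ = c' * s := by rw [e3]; simp
    rw [cj_mul, mem_fix_iff_cj.mp hc.2 c' ⟨hc', hc'C⟩,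
      mem_fix_iff_cj.mp (supp_centralizer_le_fix R (supp_mono inf_le_right hc.1)) r hr]

end CA

end Cfsg.Agent.BlockLib
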