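import Cfsg.Agent.BlockLib.KG.ConstrainedTr
import Cfsg.Agent.BlockLib.KG.DefectTr
import Cfsg.Agent.H25.Cover2
import Cfsg.Agent.H25.StabBridge
import Cfsg.Agent.H6.FirstMainTr

/-!
# Characters over a stable character of `O_{p'}(G)` in a `p`-constrained group
-/

set_option autoImplicit false

namespace Cfsg.Agent.BlockLib

open Cfsg Cfsg.Agent.CharLib

universe u

local notation "C(" P ")" => Subgroup.centralizer (SetLike.coe P)
local notation "N(" P ")" => Subgroup.normalizer (SetLike.coe P)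

variable {M : Ideal AlgInt} [M.IsPrime] {G : Type u} [Group G] [Fintype G]
variable {p : ℕ} [Fact p.Prime] [CharP (ResField M) p]

/-- Block induction from the centralizer of a `p`-subgroup. -/
theorem isInducedBlock_centralizer_iff_br {Q : Subgroup G} (hQ : IsPGroup p Q)
    {b : Set (IrrCharacter C(Q))} (hb : IsPBlock M b) {B : Set (IrrCharacter G)}
    (hB : IsPBlock M B) :
    IsInducedBlock M C(Q) b B ↔ CA.br Q (eps M B) * epsS M C(Q) b = epsS M C(Q) b := by
  classical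
  letI : Fintype C(Q) := Fintype.ofFinite _
  rw [H6.IndBlk.isInducedBlock_iff hb hB]
  have hHN := CA.centralizer_le_normalizer' Q
  have hft := isBlk_epsS hb
  have key : ∀ g, H6.IndBlk.trunc M C(Q) g = CA.br Q (CA.clsSum ⊤ g) := by
    intro g
    rw [← H6.IndBlk.br_trunc le_rfl g, CA.br_eq_self (H6.IndBlk.trunc_mem_cen _ g).1]
  constructor
  · intro h
    obtain ⟨b', hb', hbf'⟩ := H6.FirstMain.exists_blk_br_mul hQ le_rfl hHN hft
    have : eps M B = b' := by
      apply H6.FirstMain.blk_eq_of_lam_clsSum (isBlk_eps hB) hb'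
      intro g
      rw [← h g, key g, H6.FirstMain.lam_br_eq hQ le_rfl hHN hft hb' hbf'
        (CA.clsSum_mem_cen (Subgroup.mem_top g))]
    rw [this]; exact hbf'
  · intro hbf g
    rw [key g, H6.FirstMain.lam_br_eq hQ le_rfl hHN hft (isBlk_eps hB) hbf
      (CA.clsSum_mem_cen (Subgroup.mem_top g))]

/-- In a `p`-constrained group the characters over a `G`-invariant irreducible character of
`O_{p'}(G)` form a block with Sylow defect groups, of principal type. -/
theorem exists_block_over_stable (hM : IsPModular p M) (hG : IsPConstrained p G) {K : Subgroup G}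
    [hKn : K.Normal] [Fintype K] (hK : K = pPrimeCore p G) (θ : IrrCharacter K)
    (hinv : ∀ (g : G) (n : K),
      (θ : K → ℂ) ⟨g * n * g⁻¹, hKn.conj_mem n n.2 g⟩ = (θ : K → ℂ) n) :
    ∃ B : Set (IrrCharacter G), IsPBlock M B ∧
      (∀ χ : IrrCharacter G, χ ∈ B ↔
        classInner (fun n : K => (χ : G → ℂ) n) (θ : K → ℂ) ≠ 0) ∧
      (∀ P : Sylow p G, IsDefectGroup p M B (P : Subgroup G)) ∧
      (∀ D : Subgroup G, IsDefectGroup p M B D → ∃ P : Sylow p G, D = (P : Subgroup G)) ∧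
      ∀ R : Subgroup G, IsPGroup p R → CA.IsBlk C(R) (CA.br R (eps M B)) := by
  have : CA.PReg (ResField M) G p := pReg_resField hM
  have hKcard : ¬ p ∣ Nat.card K := by
    rw [hK]
    exact (Nat.Prime.coprime_iff_not_dvd (Fact.out : p.Prime)).mp
      (Cfsg.H9.pPrimeCore_coprime (G := G) p).symm
  have hb : IsPBlock M (blockOf M (θ : K → ℂ)) := ⟨θ, rfl⟩
  have hbθ : ∀ θ' ∈ blockOf M (θ : K → ℂ), θ' = θ := fun θ' h =>
    (H25.eq_of_sameBlock_of_not_dvd hM hKcard h).symm
  have hd := isBlk_epsS hb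
  have hfix : epsS M K (blockOf M (θ : K → ℂ)) ∈ CA.fix ⊤ := by
    apply CA.mem_fix_iff_cj.mpr
    intro g _
    apply (H25.cj_epsS_eq_iff hb g).mp
    intro θ₁ h₁ θ' h'
    have : θ' = θ := by
      apply Subtype.ext
      funext n
      rw [h' n, hbθ θ₁ h₁, hinv]
    rw [this]
    exact mem_blockOf_self θ
  have hd' : CA.IsBlk (pPrimeCore p G) (epsS M K (blockOf M (θ : K → ℂ))) := hK ▸ hd
  have hdG := CA.isBlk_top_of_isPConstrained (p := p) hG hd' hfix
  obtain ⟨B, hB, hBd⟩ := exists_eps_eq hdG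
  refine ⟨B, hB, fun χ => ⟨fun hχ => ?_, fun hχ => ?_⟩, ?_, ?_, ?_⟩
  · obtain ⟨θ₁, hθ₁⟩ := H25.exists_constituent (N := K) χ
    have hb₁ : IsPBlock M (blockOf M (θ₁ : K → ℂ)) := ⟨θ₁, rfl⟩
    have h1 := (H25.covers_iff_mul_ne_zero hB hb₁).mp ⟨χ, hχ, θ₁, mem_blockOf_self θ₁, hθ₁⟩
    rw [hBd] at h1
    have h2 := epsS_injective hb hb₁ (hd.eq_of_mul_ne_zero (isBlk_epsS hb₁) h1)
    have h3 : θ₁ = θ := hbθ θ₁ (by rw [h2]; exact mem_blockOf_self θ₁)
    rwa [h3] at hθ₁
  · have hB' : IsPBlock M (blockOf M (χ : G → ℂ)) := ⟨χ, rfl⟩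
    have h1 := (H25.covers_iff_mul_ne_zero hB' hb).mp
      ⟨χ, mem_blockOf_self χ, θ, mem_blockOf_self θ, hχ⟩
    rw [← hBd] at h1
    have h2 : blockOf M (χ : G → ℂ) = B := by
      by_contra hne
      exact h1 (eps_mul_of_ne hB' hB hne)
    rw [← h2]
    exact mem_blockOf_self χ
  · intro P
    rw [isDefectGroup_iff hB, hBd]
    obtain ⟨D, hD⟩ := CA.exists_isDefGrp (p := p) hdG
    have hidx := CA.not_dvd_index_of_pprime hKcard hd hdG hD
    have hsyl : CA.IsSylIn p D ⊤ :=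
      CA.isSylIn_of_not_dvd_relIndex le_top hD.isPGroup (by rwa [Subgroup.relIndex_top_right])
    obtain ⟨c, hc, hPc⟩ := hsyl.exists_conj_le P.isPGroup' le_top
    have := P.is_maximal' (CA.isPGroup_cjs hD.isPGroup c) hPc
    rw [← this]
    exact hD.cj hdG hc
  · intro D hD
    rw [isDefectGroup_iff hB, hBd] at hD
    exact ⟨hD.isPGroup.toSylow (CA.not_dvd_index_of_pprime hKcard hd hdG hD), rfl⟩
  · intro R hR
    rw [hBd]
    exact CA.isBlk_centralizer_br_of_isPConstrained hG hd' hfix hR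

end Cfsg.Agent.BlockLib
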