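import Cfsg.Agent.BlockLib.KG.Constrained
import Cfsg.Agent.BlockLib.KG.PRegTr
import Cfsg.Agent.H9.PConstr2
import Cfsg.Agent.H9.Local4

/-!
# Stable blocks of `O_{p'}(G)` in `p`-constrained groups
-/

set_option autoImplicit false

namespace Cfsg.Agent.BlockLib

namespace CA

open Cfsg

universe u v

local notation "C(" P ")" => Subgroup.centralizer (SetLike.coe P)
local notation "N(" P ")" => Subgroup.normalizer (SetLike.coe P)

section grp

variable {G : Type u} [Group G] [Finite G] {p : ℕ} [Fact p.Prime]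

theorem not_dvd_orderOf_of_mem_pPrimeCore {x : G} (hx : x ∈ pPrimeCore p G) :
    ¬ p ∣ orderOf x := by
  intro h
  have h1 : orderOf x ∣ Nat.card (pPrimeCore p G) := by
    have := orderOf_dvd_natCard (⟨x, hx⟩ : pPrimeCore p G)
    rwa [Subgroup.orderOf_mk] at this
  have h2 := Cfsg.H9.pPrimeCore_coprime (G := G) p
  exact (Nat.Prime.coprime_iff_not_dvd (Fact.out : p.Prime)).mp h2.symm (h.trans h1)

theorem pPrimeCore_le_pPrimePCore : pPrimeCore p G ≤ pPrimePCore p G := by
  intro x hx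
  show QuotientGroup.mk' (pPrimeCore p G) x ∈ pCore p (G ⧸ pPrimeCore p G)
  have h1 : QuotientGroup.mk' (pPrimeCore p G) x = 1 := (QuotientGroup.eq_one_iff x).mpr hx
  rw [h1]
  exact Subgroup.one_mem _

theorem mem_pPrimeCore_of_preg {x : G} (hx : x ∈ pPrimePCore p G) (hreg : ¬ p ∣ orderOf x) :
    x ∈ pPrimeCore p G := by
  have hx' : QuotientGroup.mk' (pPrimeCore p G) x ∈ pCore p (G ⧸ pPrimeCore p G) := hx
  obtain ⟨n, hn⟩ := Cfsg.H9.pCore_isPGroup (G := G ⧸ pPrimeCore p G) p ⟨_, hx'⟩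
  have h1 : x ^ (p ^ n) ∈ pPrimeCore p G := by
    have := congrArg Subtype.val hn
    rw [← QuotientGroup.eq_one_iff]
    simpa using this
  apply GrpAux.mem_of_pow_mem_of_coprime (a := p ^ n) (b := orderOf x)
  · exact Nat.Coprime.pow_left _ ((Nat.Prime.coprime_iff_not_dvd (Fact.out : p.Prime)).mpr hreg)
  · exact h1
  · rw [pow_orderOf_eq_one]
    exact Subgroup.one_mem _

/-- One Sylow subgroup of `O_{p',p}(G)` suffices to test `p`-constraint. -/
theorem isPConstrained_of_isSylIn {Q : Subgroup G} (hQ : IsSylIn p Q (pPrimePCore p G))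
    (hC : C(Q) ≤ pPrimePCore p G) : IsPConstrained p G := by
  intro P
  have hP := isSylIn_of_sylow P
  obtain ⟨c, -, hc⟩ := hQ.exists_conj_le hP.1 hP.2.1
  have hn : cjs c (pPrimePCore p G) = pPrimePCore p G :=
    cjs_eq_of_mem_normalizer (by rw [Subgroup.normalizer_eq_top]; trivial)
  have h1 : cjs c Q = _ := hP.2.2 (cjs c Q) (isPGroup_cjs hQ.1 c)
    (by rw [← hn]; exact cjs_mono hQ.2.1) hc
  rw [← h1, centralizer_cjs, ← hn]
  exact cjs_mono hC

theorem isSylIn_of_not_dvd_relIndex {Q L : Subgroup G} (hQL : Q ≤ L) (hQ : IsPGroup p Q)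
    (h : ¬ p ∣ Q.relIndex L) : IsSylIn p Q L := by
  have hQ' : IsPGroup p (Q.subgroupOf L) := hQ.comap_subtype
  have h1 := isSylIn_of_sylow (hQ'.toSylow h)
  have h2 : ((hQ'.toSylow h : Sylow p L) : Subgroup L) = Q.subgroupOf L := rfl
  rwa [h2, Subgroup.map_subgroupOf_eq_of_le hQL] at h1

theorem up_pPrimeCore_centralizer (hG : IsPConstrained p G) {R : Subgroup G} (hR : IsPGroup p R) :
    up C(R) (pPrimeCore p ↥C(R)) = pPrimeCore p G ⊓ C(R) := by
  apply le_antisymm
  · refine le_inf ?_ (up_le _)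
    have hL : pLayer p (↥(⊤ : Subgroup G)) = ⊥ :=
      Cfsg.H9.pLayer_eq_bot_of_mulEquiv Subgroup.topEquiv.symm (Cfsg.H9.isPConstrained_iff.mp hG)
    have := Cfsg.H9.coreOf_centralizer_le hL (le_top : R ≤ ⊤) hR
    rwa [top_inf_eq, Cfsg.H9.coreOf_top] at this
  · apply Cfsg.H9.le_coreOf inf_le_right
    · intro x hx
      apply mem_normalizer_of_cjs_eq
      rw [cjs_inf, cjs_eq_of_mem_normalizer (by rw [Subgroup.normalizer_eq_top]; trivial),
        cjs_eq_of_mem_normalizer (Subgroup.le_normalizer hx)]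
    · exact Nat.Coprime.coprime_dvd_left (Subgroup.card_dvd_of_le inf_le_left)
        (Cfsg.H9.pPrimeCore_coprime p)

end grp

variable {k : Type v} [Field k] {G : Type u} [Group G] [Fintype G] [Split k G]
variable {p : ℕ} [Fact p.Prime] [CharP k p]

omit [Split k G] [Fact p.Prime] [CharP k p] in
theorem pReg_subgroup [PReg k G p] (H : Subgroup G) [Fintype H] : PReg k H p where
  reg := by
    intro S ε hε g hg
    have h1 : IsBlk (up H S) (ext0 H ε) := (isBlk_ext0_up_iff H).mpr hε
    have h2 := PReg.reg (p := p) _ _ h1 (g : G) (by rwa [Subgroup.orderOf_coe])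
    rwa [ext0_apply_mem H _ g.2] at h2

/-- In a `p`-constrained group a `G`-stable block of `O_{p'}(G)` is a block of `G`. -/
theorem isBlk_top_of_isPConstrained [PReg k G p] (hG : IsPConstrained p G) {d : CA k G}
    (hd : IsBlk (pPrimeCore p G) d) (hfix : d ∈ fix ⊤) : IsBlk ⊤ d := by
  obtain ⟨P⟩ : Nonempty (Sylow p ↥(pPrimePCore p G)) := inferInstance
  refine IsBlk.of_constrained (p := p) pPrimeCore_le_pPrimePCore le_top ?_ ?_
    (fun x hx => not_dvd_orderOf_of_mem_pPrimeCore hx)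
    (fun x hx hreg => mem_pPrimeCore_of_preg hx hreg) (isSylIn_of_sylow P)
    (inf_le_right.trans (hG P)) hd hfix
  · rw [Subgroup.normalizer_eq_top]
  · rw [Subgroup.normalizer_eq_top]

/-- In a `p`-constrained group, a `G`-stable block `d` of `O_{p'}(G)` is of principal type:
`Br_R(d)` is a block of `C_G(R)` for every `p`-subgroup `R`. -/
theorem isBlk_centralizer_br_of_isPConstrained [PReg k G p] (hG : IsPConstrained p G) {d : CA k G}
    (hd : IsBlk (pPrimeCore p G) d) (hfix : d ∈ fix ⊤) {R : Subgroup G} (hR : IsPGroup p R) :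
    IsBlk C(R) (br R d) := by
  letI : Fintype C(R) := Fintype.ofFinite _
  have : Split k C(R) := split_subgroup _
  have : PReg k C(R) p := pReg_subgroup _
  have h1 : IsBlk (pPrimeCore p G ⊓ C(R)) (br R d) :=
    isBlk_br_of_pprime (by rw [Subgroup.normalizer_eq_top]; exact le_top) hR
      (fun x hx => not_dvd_orderOf_of_mem_pPrimeCore hx) hd (fix_anti le_top hfix)
  have h2 : br R d ∈ cen C(R) :=
    ⟨br_mem_supp R d, br_mem_fix (centralizer_le_normalizer' R) (fix_anti le_top hfix)⟩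
  have h3 : ext0 C(R) (res C(R) (br R d)) = br R d := ext0_res _ h2.1
  have hC := (Cfsg.H9.isPConstrained_normalizer_centralizer hG R hR).2
  have h4 : IsBlk (⊤ : Subgroup C(R)) (res C(R) (br R d)) := by
    apply isBlk_top_of_isPConstrained (p := p) hC _ (res_mem_cen _ h2).2
    rw [← isBlk_ext0_up_iff C(R), h3, up_pPrimeCore_centralizer hG hR]
    exact h1
  rwa [← isBlk_ext0_up_iff C(R), h3, up_top] at h4

end CA

end Cfsg.Agent.BlockLib
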