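import Cfsg.Agent.H25.Cover
import Cfsg.Agent.BlockLib.KG.Dict

/-!
# Covering of blocks, relative to a pair of subgroups `L ⊴ H` of `G`
-/

set_option autoImplicit false

namespace Cfsg.Agent.BlockLib

open Cfsg Cfsg.Agent.CharLib

universe u

variable {M : Ideal AlgInt} [M.IsPrime] {G : Type u} [Group G] [Fintype G]

theorem classInner_equiv {K K' : Type*} [Group K] [Group K'] [Fintype K] [Fintype K']
    (α : K ≃* K') (f g : K' → ℂ) :
    classInner (fun x => f (α x)) (fun x => g (α x)) = classInner f g := by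
  unfold classInner
  rw [Nat.card_congr α.toEquiv]
  congr 1
  exact Equiv.sum_comp α.toEquiv (fun y => f y * (starRingEnd ℂ) (g y))

/-- Transport of a block of `L` to `L.subgroupOf H`: the idempotents correspond. -/
theorem ext0_epsS_subgroupOf {H L : Subgroup G} [Fintype H] (hLH : L ≤ H)
    (e : Set (IrrCharacter L)) :
    CA.ext0 H (epsS M (L.subgroupOf H)
      (mapIrr (Subgroup.subgroupOfEquivOfLe hLH).symm '' e)) = epsS M L e := by
  ext g
  by_cases hgH : g ∈ H
  · rw [CA.ext0_apply_mem H _ hgH, epsS, epsS, red_apply, red_apply, subgroupBlockCoeff,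
      subgroupBlockCoeff]
    by_cases hgL : g ∈ L
    · have hgL' : (⟨g, hgH⟩ : H) ∈ L.subgroupOf H := Subgroup.mem_subgroupOf.mpr hgL
      rw [dif_pos hgL, dif_pos hgL']
      have := blockCoeff_equiv (Subgroup.subgroupOfEquivOfLe hLH).symm e ⟨g, hgL⟩
      rw [← this]
      rfl
    · have hgL' : (⟨g, hgH⟩ : H) ∉ L.subgroupOf H := fun h => hgL (Subgroup.mem_subgroupOf.mp h)
      rw [dif_neg hgL, dif_neg hgL']
  · rw [CA.ext0_apply_not_mem H _ hgH, epsS, red_apply, subgroupBlockCoeff,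
      dif_neg (fun h => hgH (hLH h)), redS_zero]

theorem covers_rel_iff {H L : Subgroup G} [Fintype H] [Fintype L] (hLH : L ≤ H)
    (hHL : H ≤ Subgroup.normalizer (L : Set G))
    {c : Set (IrrCharacter H)} (hc : IsPBlock M c) {e : Set (IrrCharacter L)}
    (he : IsPBlock M e) :
    (∃ ψ ∈ c, ∃ ξ ∈ e, classInner (fun l : L => (ψ : H → ℂ) (Subgroup.inclusion hLH l))
      (ξ : L → ℂ) ≠ 0) ↔ epsS M H c * epsS M L e ≠ 0 := by
  haveI : (L.subgroupOf H).Normal := (Subgroup.normal_subgroupOf_iff_le_normalizer hLH).mpr hHL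
  haveI : Fintype (L.subgroupOf H) := Fintype.ofFinite _
  set α := (Subgroup.subgroupOfEquivOfLe hLH).symm with hα
  have h1 := Cfsg.Agent.H25.covers_iff_mul_ne_zero (N := L.subgroupOf H) hc (isPBlock_equiv α he)
  have h2 : eps M c * epsS M (L.subgroupOf H) (mapIrr α '' e) ≠ 0 ↔
      epsS M H c * epsS M L e ≠ 0 := by
    rw [← ext0_epsS_subgroupOf hLH e, epsS_eq_ext0 H c, ← map_mul]
    constructor
    · intro h h0
      exact h (CA.ext0_injective H (by rw [h0, map_zero]))
    · intro h h0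
      exact h (by rw [h0, map_zero])
  rw [← h2, ← h1]
  unfold Cfsg.Agent.H25.Covers
  refine exists_congr fun ψ => and_congr_right fun _ => ?_
  have e2 : ∀ ξ : IrrCharacter L, (fun x : L => (mapIrr α ξ : L.subgroupOf H → ℂ) (α x)) = ξ := by
    intro ξ
    funext x
    rw [mapIrr_apply, MulEquiv.symm_apply_apply]
  have e3 : ∀ ξ : IrrCharacter L,
      classInner (fun n : L.subgroupOf H => (ψ : H → ℂ) n) (mapIrr α ξ : L.subgroupOf H → ℂ) =
      classInner (fun l : L => (ψ : H → ℂ) (Subgroup.inclusion hLH l)) (ξ : L → ℂ) := by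
    intro ξ
    rw [← classInner_equiv α, e2]
    rfl
  constructor
  · rintro ⟨ξ, hξ, hne⟩
    exact ⟨mapIrr α ξ, ⟨ξ, hξ, rfl⟩, by rw [e3]; exact hne⟩
  · rintro ⟨_, ⟨ξ, hξ, rfl⟩, hne⟩
    exact ⟨ξ, hξ, by rw [← e3]; exact hne⟩

end Cfsg.Agent.BlockLib
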