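import Cfsg.Agent.BlockLib.KG.GrpAux

/-!
# `p'`-groups of automorphisms of a cyclic `p`-group
-/

set_option autoImplicit false

namespace Cfsg.Agent.BlockLib

namespace CycAut

variable {G : Type*} [Group G] [Finite G] {p : ℕ} [hp : Fact p.Prime]

local notation "C(" P ")" => Subgroup.centralizer (SetLike.coe P)
local notation "N(" P ")" => Subgroup.normalizer (SetLike.coe P)

theorem mem_centralizer_of_conj {P : Subgroup G} {z : G} (hz : ∀ x ∈ P, z * x * z⁻¹ = x) :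
    z ∈ C(P) := by
  rw [Subgroup.mem_centralizer_iff]
  intro x hx
  have := hz x hx
  rw [mul_inv_eq_iff_eq_mul] at this
  exact this.symm

/-- `g` normalizes the cyclic `p`-group `P` and fixes a non-identity element: a `p`-power of `g`
centralizes `P`. -/
theorem exists_pow_mem_centralizer {P : Subgroup G} (hP : IsPGroup p P) (hcyc : IsCyclic P) {g : G}
    (hg : g ∈ N(P)) {x : G} (hx : x ∈ P) (hx1 : x ≠ 1) (hgx : g * x * g⁻¹ = x) :
    ∃ n : ℕ, g ^ p ^ n ∈ C(P) := by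
  obtain ⟨n, hn⟩ := IsPGroup.iff_card.mp hP
  obtain ⟨⟨x0, hx0⟩, hgen⟩ := hcyc.exists_generator
  have hgen' : ∀ y ∈ P, ∃ j : ℕ, x0 ^ j = y := by
    intro y hy
    have h1 := hgen ⟨y, hy⟩
    rw [← mem_powers_iff_mem_zpowers] at h1
    obtain ⟨j, hj⟩ := h1
    exact ⟨j, by simpa using congrArg Subtype.val hj⟩
  obtain ⟨r, hr⟩ := hgen' _ ((Subgroup.mem_normalizer_iff.mp hg x0).mp hx0)
  have hpow : ∀ y ∈ P, g * y * g⁻¹ = y ^ r := by
    intro y hy
    obtain ⟨j, rfl⟩ := hgen' y hy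
    rw [← conj_pow, ← hr, ← pow_mul, ← pow_mul, mul_comm]
  have hpow' : ∀ i : ℕ, ∀ y ∈ P, g ^ i * y * (g ^ i)⁻¹ = y ^ r ^ i := by
    intro i
    induction i with
    | zero => intro y _; simp
    | succ i ih =>
      intro y hy
      have e1 : g ^ (i + 1) * y * (g ^ (i + 1))⁻¹ = g * (g ^ i * y * (g ^ i)⁻¹) * g⁻¹ := by
        rw [pow_succ']; group
      rw [e1, ih y hy, hpow _ (P.pow_mem hy _), ← pow_mul, pow_succ]
  have hord : ∀ y ∈ P, orderOf y ∣ p ^ n := by
    intro y hy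
    rw [← hn]
    have := orderOf_dvd_natCard (⟨y, hy⟩ : P)
    rwa [Subgroup.orderOf_mk] at this
  have hpx : p ∣ orderOf x := by
    obtain ⟨j, -, hj⟩ := (Nat.dvd_prime_pow hp.out).mp (hord x hx)
    have hj0 : j ≠ 0 := by
      rintro rfl
      rw [pow_zero, orderOf_eq_one_iff] at hj
      exact hx1 hj
    rw [hj]; exact dvd_pow_self p hj0
  have hr1 : ((p : ℕ) : ℤ) ∣ (r : ℤ) - 1 := by
    have h1 : x ^ 1 = x ^ r := by rw [pow_one, ← hpow x hx, hgx]
    rw [pow_eq_pow_iff_modEq] at h1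
    have h2 := (Nat.modEq_iff_dvd.mp h1)
    have h3 : ((p : ℕ) : ℤ) ∣ ((orderOf x : ℕ) : ℤ) := by exact_mod_cast hpx
    simpa using h3.trans h2
  have h2 := dvd_sub_pow_of_dvd_sub hr1 n
  refine ⟨n, mem_centralizer_of_conj fun y hy => ?_⟩
  rw [hpow' _ y hy]
  have h3 : y ^ 1 = y ^ r ^ p ^ n := by
    rw [pow_eq_pow_iff_modEq, Nat.modEq_iff_dvd]
    have h4 : ((orderOf y : ℕ) : ℤ) ∣ ((p : ℤ) ^ (n + 1)) := by
      have : orderOf y ∣ p ^ (n + 1) := (hord y hy).trans (pow_dvd_pow p (Nat.le_succ n))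
      exact_mod_cast this
    have h5 := h4.trans h2
    simpa using h5
  rw [← h3, pow_one]

theorem mem_centralizer_of_fix {P T : Subgroup G} (hP : IsPGroup p P) (hcyc : IsCyclic P)
    (hTN : T ≤ N(P)) (hnd : ¬ p ∣ C(P).relIndex T) [hn : (C(P).subgroupOf T).Normal] {g : G}
    (hg : g ∈ T) {x : G} (hx : x ∈ P) (hx1 : x ≠ 1) (hgx : g * x * g⁻¹ = x) : g ∈ C(P) := by
  obtain ⟨n, hn'⟩ := exists_pow_mem_centralizer hP hcyc (hTN hg) hx hx1 hgx
  have h1 := Subgroup.pow_index_mem (C(P).subgroupOf T) (⟨g, hg⟩ : T)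
  have h2 : g ^ C(P).relIndex T ∈ C(P) := by
    have := Subgroup.mem_subgroupOf.mp h1
    simpa [Subgroup.relIndex] using this
  exact GrpAux.mem_of_pow_mem_of_coprime
    (Nat.Coprime.pow_left n ((Nat.Prime.coprime_iff_not_dvd hp.out).mpr hnd)) hn' h2

theorem conj_mem_zpowers {P : Subgroup G} (hcyc : IsCyclic P) {g : G} (hg : g ∈ N(P)) {w : G}
    (hw : w ∈ P) {h : G} (hh : h ∈ Subgroup.zpowers w) : g * h * g⁻¹ ∈ Subgroup.zpowers w := by
  obtain ⟨⟨x0, hx0⟩, hgen⟩ := hcyc.exists_generator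
  have hgen' : ∀ y ∈ P, ∃ j : ℕ, x0 ^ j = y := by
    intro y hy
    have h1 := hgen ⟨y, hy⟩
    rw [← mem_powers_iff_mem_zpowers] at h1
    obtain ⟨j, hj⟩ := h1
    exact ⟨j, by simpa using congrArg Subtype.val hj⟩
  obtain ⟨r, hr⟩ := hgen' _ ((Subgroup.mem_normalizer_iff.mp hg x0).mp hx0)
  have hpow : ∀ y ∈ P, g * y * g⁻¹ = y ^ r := by
    intro y hy
    obtain ⟨j, rfl⟩ := hgen' y hy
    rw [← conj_pow, ← hr, ← pow_mul, ← pow_mul, mul_comm]
  have hhP : h ∈ P := (Subgroup.zpowers_le.mpr hw) hh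
  rw [hpow h hhP]
  exact Subgroup.pow_mem _ hh _

theorem main {P T : Subgroup G} (hP : IsPGroup p P) (hP1 : P ≠ ⊥) (hcyc : IsCyclic P)
    (hTN : T ≤ N(P)) (hnd : ¬ p ∣ C(P).relIndex T) [hn : (C(P).subgroupOf T).Normal] :
    IsCyclic (T ⧸ C(P).subgroupOf T) ∧ C(P).relIndex T ∣ p - 1 := by
  classical
  -- an element of order `p`
  have hpP : p ∣ Nat.card P := by
    obtain ⟨n, hn'⟩ := IsPGroup.iff_card.mp hP
    have hn0 : n ≠ 0 := by
      rintro rfl
      rw [pow_zero] at hn'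
      exact hP1 (Subgroup.card_eq_one.mp hn')
    rw [hn']; exact dvd_pow_self p hn0
  obtain ⟨w', hw'⟩ := exists_prime_orderOf_dvd_card' p hpP
  set w : G := (w' : G) with hwdef
  have hwP : w ∈ P := w'.2
  have hw : orderOf w = p := by rw [hwdef, Subgroup.orderOf_coe]; exact hw'
  have hw1 : w ≠ 1 := by
    intro h0
    rw [h0, orderOf_one] at hw
    exact hp.out.one_lt.ne hw
  set Ω : Subgroup G := Subgroup.zpowers w with hΩ
  have hΩcard : Nat.card Ω = p := by rw [hΩ, Nat.card_zpowers, hw]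
  have hTΩ : T ≤ N(Ω) := by
    intro g hg
    rw [Subgroup.mem_normalizer_iff]
    intro h
    constructor
    · intro hh
      exact conj_mem_zpowers hcyc (hTN hg) hwP hh
    · intro hh
      have := conj_mem_zpowers hcyc (hTN (T.inv_mem hg)) hwP hh
      have e : g⁻¹ * (g * h * g⁻¹) * g⁻¹⁻¹ = h := by group
      rwa [e] at this
  let ψ : T →* MulAut Ω := Ω.normalizerMonoidHom.comp (Subgroup.inclusion hTΩ)
  have hker : ψ.ker = C(P).subgroupOf T := by
    ext g
    rw [MonoidHom.mem_ker, Subgroup.mem_subgroupOf]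
    have h1 : ψ g = 1 ↔ (Subgroup.inclusion hTΩ g) ∈ Ω.normalizerMonoidHom.ker := by
      rw [MonoidHom.mem_ker]; rfl
    rw [h1, Subgroup.normalizerMonoidHom_ker, Subgroup.mem_subgroupOf]
    constructor
    · intro h2
      have h3 : (g : G) ∈ C(Ω) := h2
      have h4 := (Subgroup.mem_centralizer_iff.mp h3) w (Subgroup.mem_zpowers w)
      apply mem_centralizer_of_fix hP hcyc hTN hnd g.2 hwP hw1
      rw [mul_inv_eq_iff_eq_mul]
      exact h4.symm
    · intro h2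
      exact Subgroup.centralizer_le (Subgroup.zpowers_le.mpr hwP) h2
  haveI : Fact (Nat.card Ω).Prime := ⟨hΩcard ▸ hp.out⟩
  haveI : IsCyclic Ω := by rw [hΩ]; infer_instance
  haveI : IsCyclic (MulAut Ω) :=
    isCyclic_of_injective (IsCyclic.mulAutMulEquiv Ω).toMonoidHom (IsCyclic.mulAutMulEquiv Ω).injective
  have hinj := QuotientGroup.kerLift_injective ψ
  have e := QuotientGroup.quotientMulEquivOfEq hker
  constructor
  · haveI : IsCyclic (T ⧸ ψ.ker) := isCyclic_of_injective _ hinj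
    exact isCyclic_of_injective e.symm.toMonoidHom e.symm.injective
  · have h1 := Subgroup.card_dvd_of_injective _ hinj
    rw [IsCyclic.card_mulAut, hΩcard, Nat.totient_prime hp.out, Nat.card_congr e.toEquiv] at h1
    exact h1

end CycAut

end Cfsg.Agent.BlockLib
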