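import Cfsg.Agent.BlockLib.KG.KerAv3

/-!
# Induction of blocks from a subgroup containing the centralizer of a defect group
-/

set_option autoImplicit false

namespace Cfsg.Agent.BlockLib

namespace CA

universe u v

local notation "C(" P ")" => Subgroup.centralizer (SetLike.coe P)
local notation "N(" P ")" => Subgroup.normalizer (SetLike.coe P)

variable {k : Type v} [Field k] {G : Type u} [Group G] [Fintype G]
variable {p : ℕ} [Fact p.Prime] [CharP k p]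

theorem SubLE.br_mul_eq {a b : Subgroup G × CA k G} (h : SubLE p a b) {z : CA k G} :
    z ∈ fix b.1 → br a.1 z * a.2 = a.2 → br b.1 z * b.2 = b.2 := by
  induction h with
  | refl => exact fun _ h => h
  | @tail b' c _ hbc ih =>
    intro hz ha
    obtain ⟨-, hPe, hQP, hPN, hfP, hbr⟩ := hbc
    have h1 := ih (fix_anti hQP hz) ha
    have h2 := congrArg (br c.1) h1
    rw [br_mul hPe.1 (br_mem_fix hPN hz) hfP, br_br hQP] at h2
    rw [← hbr, ← mul_assoc, h2]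

variable [Split k G]

/-- existence of a Brauer pair at `Q` for a block `b₀` of `A ≥ C_G(Q)` with `Br_Q(b₀) ≠ 0`. -/
theorem exists_blk_br_mul_rel {A Q : Subgroup G} (hQ : IsPGroup p Q) (hQA : Q ≤ A) (hCA : C(Q) ≤ A)
    {b₀ : CA k G} (hb₀ : IsBlk A b₀) (hbr : br Q b₀ ≠ 0) :
    ∃ e₀, IsBlk C(Q) e₀ ∧ br Q b₀ * e₀ = e₀ := by
  have hmem : br Q b₀ ∈ cen C(Q) := br_mem_cen (fix_anti hCA hb₀.mem.2)
  obtain ⟨e₀, he₀, hee⟩ := exists_blk_of_idem hmem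
    (br_idem hQ (fix_anti hQA hb₀.mem.2) hb₀.idem) hbr
  exact ⟨e₀, he₀, by rw [cen_comm hmem he₀.mem, hee]⟩

/-- The induced block is defined. -/
theorem exists_induced {A Q : Subgroup G} (hQ : IsPGroup p Q) (hQA : Q ≤ A) (hCA : C(Q) ≤ A)
    {b₀ : CA k G} (hb₀ : IsBlk A b₀) (hbr : br Q b₀ ≠ 0) (t : G → CA k G)
    (ht : ∀ g, t g ∈ cen A) (htbr : ∀ g, br Q (t g) = br Q (clsSum ⊤ g)) :
    ∃ b, IsBlk ⊤ b ∧ ∀ g, lam A b₀ (t g) = lam ⊤ b (clsSum ⊤ g) := by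
  have hCN := centralizer_le_normalizer' Q
  obtain ⟨e₀, he₀, hbe⟩ := exists_blk_br_mul_rel hQ hQA hCA hb₀ hbr
  obtain ⟨b', hb', hbf'⟩ := H6.FirstMain.exists_blk_br_mul hQ le_rfl hCN he₀
  refine ⟨b', hb', fun g => ?_⟩
  rw [← lam_br_eq_rel hQ hQA hCA inf_le_right hCN he₀ hb₀ hbe (ht g), htbr g,
    H6.FirstMain.lam_br_eq hQ le_rfl hCN he₀ hb' hbf' (clsSum_mem_cen (Subgroup.mem_top g))]

/-- If the block `b₀` of `A` with defect group `Q`, `C_G(Q) ≤ A`, induces `b`, then `b` has a defect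
group `P ≥ Q` with `C_P(Q) ≤ Q`. -/
theorem exists_isDefGrp_of_induced {A Q : Subgroup G} (hCA : C(Q) ≤ A) {b₀ b : CA k G}
    (hb₀ : IsBlk A b₀) (hQ : IsDefGrp p A b₀ Q) (hb : IsBlk ⊤ b) (t : G → CA k G)
    (ht : ∀ g, t g ∈ cen A) (htbr : ∀ g, br Q (t g) = br Q (clsSum ⊤ g))
    (hind : ∀ g, lam A b₀ (t g) = lam ⊤ b (clsSum ⊤ g)) :
    ∃ P, IsDefGrp p ⊤ b P ∧ Q ≤ P ∧ P ⊓ C(Q) ≤ Q := by
  obtain ⟨e₀, he₀, hbe⟩ := exists_blk_br_mul_rel hQ.isPGroup hQ.le hCA hb₀ (hQ.br_ne_zero hb₀)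
  have h5 : IsBPOf p b Q e₀ :=
    ⟨⟨hQ.isPGroup, he₀⟩, hb, br_mul_eq_of_induced hQ.isPGroup hQ.le hCA hb₀ he₀ hbe hb t ht htbr hind⟩
  obtain ⟨P, e, hmax, hle⟩ := exists_isMaxBP_ge h5
  have hQP : Q ≤ P := hle.le
  refine ⟨P, hmax.isDefGrp, hQP, ?_⟩
  have hRP : Q ⊔ (P ⊓ C(Q)) ≤ P := sup_le hQP inf_le_left
  have hRA : Q ⊔ (P ⊓ C(Q)) ≤ A := sup_le hQ.le (inf_le_right.trans hCA)
  obtain ⟨g, hg⟩ := exists_subLE hmax.1.1 _ hRP
  have hgBP := hg.isBP hmax.1.1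
  obtain ⟨f', hf'⟩ := exists_subLE hgBP Q le_sup_left
  have hfe : f' = e₀ := SubLE.unique hmax.1.1 (hf'.trans hg) hle
  rw [hfe] at hf'
  have h6 := SubLE.br_mul_eq hf' (z := b₀) (fix_anti hRA hb₀.mem.2) hbe
  have h7 : br (Q ⊔ (P ⊓ C(Q))) b₀ ≠ 0 := by
    intro h0
    apply hgBP.2.ne_zero
    have h6' : br (Q ⊔ (P ⊓ C(Q))) b₀ * g = g := h6
    rw [← h6', h0, zero_mul]
  obtain ⟨x, -, hx⟩ := (hQ.br_ne_zero_iff hb₀ hgBP.1 hRA).mp h7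
  have h8 : Q = Q ⊔ (P ⊓ C(Q)) := by
    apply Subgroup.eq_of_le_of_card_ge le_sup_left
    have := Subgroup.card_le_of_le hx
    rwa [card_cjs] at this
  exact le_sup_right.trans h8.ge

end CA

end Cfsg.Agent.BlockLib
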