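import Cfsg.Agent.H6.FirstMainTr
import Cfsg.Agent.BlockLib.KG.DictPairs
import Cfsg.Prelude.Def_BlockLocal

/-!
# Block induction inside a subgroup (`IsInducedBlockIn`), for local subgroups
-/

set_option autoImplicit false

namespace Cfsg.Agent.BlockLib

open Cfsg Cfsg.Agent.CharLib

universe u v

local notation "C(" P ")" => Subgroup.centralizer (SetLike.coe P)
local notation "N(" P ")" => Subgroup.normalizer (SetLike.coe P)

namespace CA

variable {k : Type v} [Field k] {G : Type u} [Group G] [Fintype G] [Split k G]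
variable {p : ℕ} [Fact p.Prime] [CharP k p]

/-- Relative form of helper6's `induced_iff`. -/
theorem induced_iff_rel {Q K A : Subgroup G} (hQ : IsPGroup p Q) (hQK : Q ≤ K) (hKA : K ≤ A)
    (hCK : A ⊓ C(Q) ≤ K) (hKN : K ≤ N(Q)) {ft : CA k G} (hft : IsBlk K ft) {b : CA k G}
    (hb : IsBlk A b) (t : G → CA k G) (ht : ∀ g ∈ A, t g ∈ cen K)
    (htbr : ∀ g ∈ A, br Q (t g) = br Q (clsSum A g)) :
    (∀ g ∈ A, lam K ft (t g) = lam A b (clsSum A g)) ↔ br Q b * ft = ft := by
  haveI : Fintype A := Fintype.ofFinite A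
  haveI : Split k A := split_subgroup A
  have hQA : Q ≤ A := hQK.trans hKA
  have hupQ : up A (Q.subgroupOf A) = Q := up_subgroupOf hQA
  have hupK : up A (K.subgroupOf A) = K := up_subgroupOf hKA
  have hfe : ext0 A (res A ft) = ft := ext0_res A (supp_mono hKA hft.mem.1)
  have hbe : ext0 A (res A b) = b := ext0_res A hb.mem.1
  have hte : ∀ g : A, ext0 A (res A (t g)) = t g := fun g =>
    ext0_res A (supp_mono hKA (ht g g.2).1)
  have hft' : IsBlk (K.subgroupOf A) (res A ft) := by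
    rw [← isBlk_ext0_up_iff A, hupK, hfe]
    exact hft
  have hb' : IsBlk (⊤ : Subgroup A) (res A b) := isBlk_res A hb
  have ht' : ∀ g : A, res A (t g) ∈ cen (K.subgroupOf A) := by
    intro g
    rw [← ext0_mem_cen_up_iff A, hupK, hte]
    exact ht g g.2
  have key := Cfsg.Agent.H6.FirstMain.induced_iff (p := p) (Q := Q.subgroupOf A)
    (H := K.subgroupOf A) (ft := res A ft) (b := res A b) ?_ ?_ ?_ ?_ hft' hb'
    (fun g : A => res A (t g)) ht' ?_
  · constructor
    · intro h
      have h1 := key.mp (fun g => by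
        have := h g g.2
        rw [← hfe, ← hte g, ← hupK, lam_ext0 A hft' (ht' g)] at this
        rw [this, ← lam_ext0 A hb' (clsSum_mem_cen (Subgroup.mem_top g)), up_top, hbe,
          ext0_clsSum, up_top])
      have h2 := congrArg (ext0 A) h1
      rwa [map_mul, ext0_br, hupQ, hbe, hfe] at h2
    · intro h g hg
      have h1 := key.mpr (by
        apply ext0_injective A
        rw [map_mul, ext0_br, hupQ, hbe, hfe, h]) ⟨g, hg⟩
      rw [← lam_ext0 A hft' (ht' _), hupK, hfe, hte,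
        ← lam_ext0 A hb' (clsSum_mem_cen (Subgroup.mem_top _)), up_top, hbe, ext0_clsSum,
        up_top] at h1
      exact h1
  · rw [← isPGroup_up_iff (H := A), hupQ]
    exact hQ
  · rw [← up_le_up (H := A), hupQ, hupK]
    exact hQK
  · rw [← up_le_up (H := A), up_centralizer, hupQ, hupK]
    exact hCK
  · rw [← up_le_up (H := A), up_normalizer, hupQ, hupK]
    exact le_inf hKA hKN
  · intro g
    apply ext0_injective A
    rw [ext0_br, ext0_br, hupQ, hte, ext0_clsSum, up_top]
    exact htbr g g.2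

end CA

section Tr

variable {M : Ideal AlgInt} [M.IsPrime] {G : Type u} [Group G] [Fintype G]

open Classical in
/-- The indicator function, on `K`, of the `A`-class of `g`. -/
noncomputable def resIndIn (A K : Subgroup G) (g : G) : K → ℂ :=
  fun k => if ∃ x : A, (x : G) * (k : G) * (x : G)⁻¹ = g then 1 else 0

theorem isClassFunction_resIndIn {A K : Subgroup G} (hKA : K ≤ A) (g : G) :
    IsClassFunction K (resIndIn A K g) := by
  classical
  intro k y
  unfold resIndIn
  have : (∃ x : A, (x : G) * ((y * k * y⁻¹ : K) : G) * (x : G)⁻¹ = g) ↔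
      ∃ x : A, (x : G) * (k : G) * (x : G)⁻¹ = g := by
    constructor
    · rintro ⟨x, hx⟩
      refine ⟨x * ⟨y, hKA y.2⟩, ?_⟩
      rw [← hx]
      simp [mul_assoc]
    · rintro ⟨x, hx⟩
      refine ⟨x * ⟨y, hKA y.2⟩⁻¹, ?_⟩
      rw [← hx]
      simp [mul_assoc]
  simp only [this]

theorem rVal_resIndIn (A K : Subgroup G) (g : G) : RVal M (resIndIn A K g) := by
  classical
  intro k
  unfold resIndIn
  have hne := Ideal.IsPrime.ne_top ‹M.IsPrime›
  split_ifs
  · exact memLocalRing_one hne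
  · exact memLocalRing_zero hne

theorem omega_resIndIn (A K : Subgroup G) [Fintype K] (ξ : K → ℂ) (g : G) :
    omega ξ (resIndIn A K g) = inducedCentralCharIn A K ξ g := by
  classical
  unfold inducedCentralCharIn omega
  rw [finsum_mem_eq_finite_toFinset_sum _ (Set.toFinite _), Finset.sum_div]
  rw [← Finset.sum_filter_add_sum_filter_not Finset.univ
    (fun k : K => ∃ x : A, (x : G) * (k : G) * (x : G)⁻¹ = g)]
  have h2 : ∑ k ∈ Finset.univ.filter (fun k : K => ¬ ∃ x : A, (x : G) * (k : G) * (x : G)⁻¹ = g),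
      resIndIn A K g k * ξ k / ξ 1 = 0 := by
    apply Finset.sum_eq_zero
    intro k hk
    rw [resIndIn, if_neg (Finset.mem_filter.1 hk).2, zero_mul, zero_div]
  rw [h2, add_zero]
  refine Finset.sum_congr ?_ ?_
  · ext k; simp
  · intro k hk
    have hk' : ∃ x : A, (x : G) * (k : G) * (x : G)⁻¹ = g := by simpa using hk
    rw [resIndIn, if_pos hk', one_mul]

/-- The truncation to `K` of the `A`-class sum of `g`. -/
noncomputable def truncIn (M : Ideal AlgInt) [M.IsPrime] (A K : Subgroup G) [Fintype K] (g : G) :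
    CA (ResField M) G := CA.ext0 K (red M (resIndIn A K g))

theorem truncIn_mem_cen {A K : Subgroup G} [Fintype K] (hKA : K ≤ A) (g : G) :
    truncIn M A K g ∈ CA.cen K :=
  (CA.ext0_mem_cen_iff K).mpr (red_mem_cen (isClassFunction_resIndIn hKA g))

theorem truncIn_apply_mem {A K : Subgroup G} [Fintype K] (g : G) {x : G} (hx : x ∈ K) :
    truncIn M A K g x = (CA.clsSum A g : CA (ResField M) G) x := by
  classical
  rw [truncIn, CA.ext0_apply_mem K _ hx, red_apply, resIndIn]
  by_cases h : ∃ y : A, (y : G) * x * (y : G)⁻¹ = g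
  · rw [if_pos h, redS_one, CA.clsSum_apply_of]
    obtain ⟨y, hy⟩ := h
    exact ⟨y⁻¹, A.inv_mem y.2, by rw [← hy]; group⟩
  · rw [if_neg h, redS_zero, CA.clsSum_apply_of_not]
    rintro ⟨y, hy, hyx⟩
    exact h ⟨⟨y, hy⟩⁻¹, by rw [← hyx]; simp [mul_assoc]⟩

theorem br_truncIn {Q A K : Subgroup G} [Fintype K] (hCK : A ⊓ C(Q) ≤ K) {g : G} (hg : g ∈ A) :
    CA.br Q (truncIn M A K g) = CA.br Q (CA.clsSum A g) := by
  ext x
  by_cases hx : x ∈ C(Q)
  · rw [CA.br_apply_of_mem _ hx, CA.br_apply_of_mem _ hx]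
    by_cases hxA : x ∈ A
    · exact truncIn_apply_mem g (hCK ⟨hxA, hx⟩)
    · rw [(CA.clsSum_mem_cen hg).1 x hxA]
      by_cases hxK : x ∈ K
      · rw [truncIn_apply_mem g hxK, (CA.clsSum_mem_cen hg).1 x hxA]
      · exact CA.ext0_apply_not_mem K _ hxK
  · rw [CA.br_apply_of_not_mem _ hx, CA.br_apply_of_not_mem _ hx]

theorem lam_clsSum_sub {A : Subgroup G} [Fintype A] {f : Set (IrrCharacter A)} (hf : IsPBlock M f)
    {χ : IrrCharacter A} (hχ : χ ∈ f) (g : A) :
    CA.lam A (epsS M A f) (CA.clsSum A (g : G)) = redS M (centralChar (χ : A → ℂ) g) := by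
  rw [← Cfsg.Agent.H6.IndBlk.lam_clsSum hf hχ g,
    ← CA.lam_ext0 A (isBlk_eps hf) (CA.clsSum_mem_cen (Subgroup.mem_top g)), CA.up_top,
    ← epsS_eq_ext0, CA.ext0_clsSum, CA.up_top]

theorem isInducedBlockIn_iff {A K : Subgroup G} [Fintype A] [Fintype K] (hKA : K ≤ A)
    {e : Set (IrrCharacter K)} (he : IsPBlock M e) {f : Set (IrrCharacter A)}
    (hf : IsPBlock M f) :
    IsInducedBlockIn M A K e f ↔ ∀ g ∈ A,
      CA.lam K (epsS M K e) (truncIn M A K g) = CA.lam A (epsS M A f) (CA.clsSum A g) := by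
  have hne := Ideal.IsPrime.ne_top ‹M.IsPrime›
  have hL : ∀ (ξ : IrrCharacter K) (g : G), MemLocalRing M (inducedCentralCharIn A K (ξ : K → ℂ) g) := by
    intro ξ g
    rw [← omega_resIndIn]
    exact memLocalRing_omega ξ.2 (isClassFunction_resIndIn hKA g) (rVal_resIndIn A K g)
  have hlam : ∀ {ξ : IrrCharacter K}, ξ ∈ e → ∀ g : G,
      CA.lam K (epsS M K e) (truncIn M A K g) =
        redS M (inducedCentralCharIn A K (ξ : K → ℂ) g) := by
    intro ξ hξ g
    rw [truncIn, lam_epsS he hξ (isClassFunction_resIndIn hKA g) (rVal_resIndIn A K g),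
      omega_resIndIn]
  constructor
  · rintro ⟨-, -, h⟩ g hg
    obtain ⟨ξ, hξ⟩ := pb_nonempty he
    obtain ⟨χ, hχ⟩ := pb_nonempty hf
    rw [hlam hξ, lam_clsSum_sub hf hχ ⟨g, hg⟩, redS_eq_iff (hL ξ g)
      (memLocalRing_of_isIntegral hne (isIntegral_centralChar_irr χ.2 _))]
    exact h ξ hξ χ hχ ⟨g, hg⟩
  · intro h
    refine ⟨he, hf, fun ξ hξ χ hχ g => ?_⟩
    rw [← redS_eq_iff (hL ξ g)
      (memLocalRing_of_isIntegral hne (isIntegral_centralChar_irr χ.2 _)), ← hlam hξ,
      ← lam_clsSum_sub hf hχ]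
    exact h g g.2

variable {p : ℕ} [Fact p.Prime] [CharP (ResField M) p]

/-- Block induction inside `A` from a local subgroup `K`, `Q C_A(Q) ≤ K ≤ N_A(Q)`. -/
theorem isInducedBlockIn_iff_br {Q K A : Subgroup G} (hQ : IsPGroup p Q) (hQK : Q ≤ K)
    (hKA : K ≤ A) (hCK : A ⊓ C(Q) ≤ K) (hKN : K ≤ N(Q)) {e : Set (IrrCharacter K)}
    (he : IsPBlock M e) {f : Set (IrrCharacter A)} (hf : IsPBlock M f) :
    IsInducedBlockIn M A K e f ↔ CA.br Q (epsS M A f) * epsS M K e = epsS M K e := by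
  haveI : Fintype A := Fintype.ofFinite A
  haveI : Fintype K := Fintype.ofFinite K
  rw [isInducedBlockIn_iff hKA he hf]
  exact CA.induced_iff_rel hQ hQK hKA hCK hKN (isBlk_epsS he) (isBlk_epsS hf) (truncIn M A K)
    (fun g _ => truncIn_mem_cen hKA g) (fun g hg => br_truncIn hCK hg)

end Tr

end Cfsg.Agent.BlockLib
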