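import Cfsg.Agent.BlockLib.KG.KerAv
import Cfsg.Agent.BlockLib.KG.Constrained
import Cfsg.Agent.BlockLib.KG.ExtFirstMain
import Cfsg.Agent.H6.FirstMain

/-!
# `O_{π'}` of local subgroups and kernels of blocks (Brauer, "On blocks and sections")
-/

set_option autoImplicit false

namespace Cfsg.Agent.BlockLib

namespace CA

open Cfsg

universe u v

local notation "C(" P ")" => Subgroup.centralizer (SetLike.coe P)
local notation "N(" P ")" => Subgroup.normalizer (SetLike.coe P)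

variable {k : Type v} [Field k] {G : Type u} [Group G] [Fintype G]
variable {p : ℕ} [Fact p.Prime] [CharP k p] {σ : Set ℕ}

/-- `y` is a `σ`-element. -/
def IsSigElt (σ : Set ℕ) (y : G) : Prop := ∀ q : ℕ, q.Prime → q ∣ orderOf y → q ∈ σ

omit [Fintype G] in
theorem card_ne_zero_of_isSig (hσ : p ∉ σ) {Y : Subgroup G} (hY : IsSig σ Y) :
    (Nat.card Y : k) ≠ 0 := by
  rw [Ne, CharP.cast_eq_zero_iff k p]
  intro h
  exact hσ (hY p Fact.out h)

omit [Fact p.Prime] [CharP k p] in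
theorem inf_centralizer_le_W (A P : Subgroup G) : W σ A ⊓ C(P) ≤ W σ (A ⊓ C(P)) := by
  apply le_W (inf_le_inf (W_le A) le_rfl) _ ((isSig_W A).mono inf_le_left)
  intro x hx
  apply mem_normalizer_of_cjs_eq
  rw [cjs_inf, cjs_eq_of_mem_normalizer (le_normalizer_W A hx.1),
    cjs_eq_of_mem_normalizer (Subgroup.le_normalizer hx.2)]

/-- Going down: from the kernel of `e` (block of `C_A(P)`) to the kernel of `f` (block of `A`). -/
theorem ker_down (hσ : p ∉ σ) {A P : Subgroup G} (hP : IsPGroup p P) (hPA : P ≤ N(A))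
    {f e : CA k G} (hf : IsBlk A f) (hfP : f ∈ fix P) (he : IsBlk (A ⊓ C(P)) e)
    (hbr : br P f * e = e) (hker : e * av (W σ (A ⊓ C(P))) = e) : f * av (W σ A) = f := by
  have hY := card_ne_zero_of_isSig (k := k) hσ (isSig_W (σ := σ) A)
  have hY' := card_ne_zero_of_isSig (k := k) hσ
    ((isSig_W (σ := σ) A).mono (inf_le_left : W σ A ⊓ C(P) ≤ W σ A))
  have hcen : (av (W σ A) : CA k G) ∈ cen A :=
    ⟨supp_mono (W_le A) (av_mem_supp _), av_mem_fix (le_normalizer_W A)⟩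
  refine (hf.prim _ hcen (av_mul_av le_rfl hY)).resolve_right fun h0 => he.ne_zero ?_
  have hYP : (av (W σ A) : CA k G) ∈ fix P :=
    av_mem_fix (hPA.trans (normalizer_le_normalizer_W A))
  have h1 := congrArg (br P) h0
  rw [br_mul hP hfP hYP, br_av, map_zero, mul_smul_comm, smul_eq_zero] at h1
  have h2 : br P f * av (W σ A ⊓ C(P)) = 0 :=
    h1.resolve_left (mul_ne_zero (inv_ne_zero hY) hY')
  have h3 : e * av (W σ A ⊓ C(P)) = e := by
    conv_lhs => rw [← hker]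
    rw [mul_assoc, av_mul_av (inf_centralizer_le_W A P) hY', hker]
  have h4 : e * av (W σ A ⊓ C(P)) = av (W σ A ⊓ C(P)) * e :=
    commute_of_fix_of_supp he.mem.2
      (supp_mono (inf_le_inf (W_le A) le_rfl) (av_mem_supp _))
  rw [← hbr, ← h3, h4, ← mul_assoc, h2, zero_mul]

/-- Going up, when `O_σ(A)` is a normal Hall subgroup of `A`. -/
theorem ker_up (hσ : p ∉ σ) {A P : Subgroup G} (hP : IsPGroup p P) (hPA : P ≤ N(A))
    {f e : CA k G} (hfP : f ∈ fix P) (he : IsBlk (A ⊓ C(P)) e)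
    (hbr : br P f * e = e) (hHall : ∀ y ∈ A, IsSigElt σ y → y ∈ W σ A)
    (hker : f * av (W σ A) = f) :
    (∀ y ∈ A ⊓ C(P), IsSigElt σ y → y ∈ W σ (A ⊓ C(P))) ∧ e * av (W σ (A ⊓ C(P))) = e := by
  have hY := card_ne_zero_of_isSig (k := k) hσ (isSig_W (σ := σ) A)
  have hY' := card_ne_zero_of_isSig (k := k) hσ
    ((isSig_W (σ := σ) A).mono (inf_le_left : W σ A ⊓ C(P) ≤ W σ A))
  have hW : W σ (A ⊓ C(P)) = W σ A ⊓ C(P) := by
    apply le_antisymm _ (inf_centralizer_le_W A P)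
    intro y hy
    have hy' := W_le _ hy
    exact ⟨hHall y hy'.1 (mem_of_isSig (isSig_W _) hy), hy'.2⟩
  refine ⟨fun y hy hs => ?_, ?_⟩
  · rw [hW]
    exact ⟨hHall y hy.1 hs, hy.2⟩
  · rw [hW]
    have hYP : (av (W σ A) : CA k G) ∈ fix P :=
      av_mem_fix (hPA.trans (normalizer_le_normalizer_W A))
    have h1 := congrArg (br P) hker
    rw [br_mul hP hfP hYP, br_av, mul_smul_comm] at h1
    have h2 : br P f * av (W σ A ⊓ C(P)) = br P f := by
      conv_lhs => rw [← h1]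
      rw [smul_mul_assoc, mul_assoc, av_mul_av le_rfl hY', h1]
    have h4 : e * av (W σ A ⊓ C(P)) = av (W σ A ⊓ C(P)) * e :=
      commute_of_fix_of_supp he.mem.2
        (supp_mono (inf_le_inf (W_le A) le_rfl) (av_mem_supp _))
    calc e * av (W σ A ⊓ C(P)) = br P f * e * av (W σ A ⊓ C(P)) := by rw [hbr]
      _ = br P f * (av (W σ A ⊓ C(P)) * e) := by rw [mul_assoc, h4]
      _ = e := by rw [← mul_assoc, h2, hbr]

omit [Fintype G] in
theorem inf_centralizer_eq {Q P : Subgroup G} (hQP : Q ≤ P) : C(Q) ⊓ C(P) = C(P) :=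
  inf_eq_right.mpr (Subgroup.centralizer_le hQP)

theorem NSub.ker_down (hσ : p ∉ σ) {Q P : Subgroup G} {f e : CA k G} (h : NSub p Q f P e)
    (hker : e * av (W σ C(P)) = e) : f * av (W σ C(Q)) = f := by
  obtain ⟨hQf, hPe, hQP, hPN, hfP, hbr⟩ := h
  have hi := inf_centralizer_eq hQP
  exact CA.ker_down hσ hPe.1 (hPN.trans (normalizer_le_normalizer_centralizer Q)) hQf.2 hfP
    (by rw [hi]; exact hPe.2) hbr (by rw [hi]; exact hker)

theorem NSub.ker_up (hσ : p ∉ σ) {Q P : Subgroup G} {f e : CA k G} (h : NSub p Q f P e)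
    (hHall : ∀ y ∈ C(Q), IsSigElt σ y → y ∈ W σ C(Q)) (hker : f * av (W σ C(Q)) = f) :
    (∀ y ∈ C(P), IsSigElt σ y → y ∈ W σ C(P)) ∧ e * av (W σ C(P)) = e := by
  obtain ⟨hQf, hPe, hQP, hPN, hfP, hbr⟩ := h
  have hi := inf_centralizer_eq hQP
  have := CA.ker_up hσ hPe.1 (hPN.trans (normalizer_le_normalizer_centralizer Q)) hfP
    (by rw [hi]; exact hPe.2) hbr hHall hker
  rwa [hi] at this

theorem SubLE.ker_down (hσ : p ∉ σ) {a b : Subgroup G × CA k G} (h : SubLE p a b) :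
    b.2 * av (W σ C(b.1)) = b.2 → a.2 * av (W σ C(a.1)) = a.2 := by
  induction h with
  | refl => exact id
  | tail _ hbc ih => exact fun hc => ih (NSub.ker_down hσ hbc hc)

theorem SubLE.ker_up (hσ : p ∉ σ) {a b : Subgroup G × CA k G} (h : SubLE p a b) :
    ((∀ y ∈ C(a.1), IsSigElt σ y → y ∈ W σ C(a.1)) ∧ a.2 * av (W σ C(a.1)) = a.2) →
    ((∀ y ∈ C(b.1), IsSigElt σ y → y ∈ W σ C(b.1)) ∧ b.2 * av (W σ C(b.1)) = b.2) := by
  induction h with
  | refl => exact id
  | tail _ hbc ih => exact fun ha => NSub.ker_up hσ hbc (ih ha).1 (ih ha).2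

/-- Conjugation invariance. -/
theorem ker_cj_iff (x : G) (Q : Subgroup G) (f : CA k G) :
    cj x f * av (W σ C(cjs x Q)) = cj x f ↔ f * av (W σ C(Q)) = f := by
  rw [centralizer_cjs, ← cjs_W, ← cj_av, ← map_mul]
  exact (cj_injective x).eq_iff

omit [Fact p.Prime] [CharP k p] in
theorem hall_cj {x : G} {Q : Subgroup G} (h : ∀ y ∈ C(Q), IsSigElt σ y → y ∈ W σ C(Q)) :
    ∀ y ∈ C(cjs x Q), IsSigElt σ y → y ∈ W σ C(cjs x Q) := by
  intro y hy hs
  rw [centralizer_cjs] at hy ⊢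
  rw [← cjs_W, mem_cjs]
  apply h _ (mem_cjs.mp hy)
  intro q hq hd
  apply hs q hq
  have : orderOf (x⁻¹ * y * x) = orderOf y := by
    have := orderOf_injective (MulAut.conj x⁻¹).toMonoidHom (MulAut.conj x⁻¹).injective y
    simpa using this
  rwa [this] at hd

/-- From a block of `T` to a block of `A ⊴ T` that it covers. -/
theorem ker_of_covers_normal (hσ : p ∉ σ) {T A : Subgroup G} (hAT : A ≤ T) (hTA : T ≤ N(A))
    {b₁ e : CA k G} (hker : b₁ * av (W σ T) = b₁) (hbe : b₁ * e = e) (he : e ∈ cen A) :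
    e * av (W σ A) = e := by
  have hY := card_ne_zero_of_isSig (k := k) hσ (isSig_W (σ := σ) A)
  have hle : W σ A ≤ W σ T :=
    le_W ((W_le A).trans hAT) (hTA.trans (normalizer_le_normalizer_W A)) (isSig_W A)
  have h1 : b₁ * av (W σ A) = b₁ := by
    conv_lhs => rw [← hker]
    rw [mul_assoc, av_mul_av hle hY, hker]
  have h4 : e * av (W σ A) = av (W σ A) * e :=
    commute_of_fix_of_supp he.2 (supp_mono (W_le A) (av_mem_supp _))
  calc e * av (W σ A) = b₁ * e * av (W σ A) := by rw [hbe]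
    _ = b₁ * (av (W σ A) * e) := by rw [mul_assoc, h4]
    _ = e := by rw [← mul_assoc, h1, hbe]

omit [CharP k p] in
theorem W_normalizer_le_centralizer (hσ : p ∉ σ) {D : Subgroup G} (hD : IsPGroup p D) :
    W σ N(D) ≤ C(D) := by
  intro w hw
  rw [Subgroup.mem_centralizer_iff]
  intro d hd
  have hd' : d ∈ D := hd
  have hwN : w ∈ N(D) := W_le _ hw
  have e1 : w * d * w⁻¹ * d⁻¹ ∈ D :=
    D.mul_mem ((Subgroup.mem_normalizer_iff.mp hwN d).mp hd') (D.inv_mem hd')
  have e2 : w * d * w⁻¹ * d⁻¹ ∈ W σ N(D) := by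
    have h1 := le_normalizer_W (σ := σ) N(D) (Subgroup.le_normalizer hd')
    have := (W σ N(D)).mul_mem hw ((Subgroup.mem_normalizer_iff.mp h1 w⁻¹).mp
      ((W σ N(D)).inv_mem hw))
    simpa [mul_assoc] using this
  have e3 := eq_one_of_mem_of_pprime hD
    (fun x hx hdv => hσ (mem_of_isSig (isSig_W N(D)) hx p Fact.out hdv)) e1 e2
  calc d * w = (w * d * w⁻¹ * d⁻¹)⁻¹ * (w * d) := by group
    _ = w * d := by rw [e3]; simp

/-- From a block `e` of `C_G(D)` to the block of `N_G(D)` covering it. -/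
theorem ker_normalizer_of_ker_centralizer (hσ : p ∉ σ) {D : Subgroup G} (hD : IsPGroup p D)
    {b₁ e : CA k G} (hb₁ : IsBlk N(D) b₁) (he : IsBlk C(D) e) (hbe : b₁ * e = e)
    (hker : e * av (W σ C(D)) = e) : b₁ * av (W σ N(D)) = b₁ := by
  have hY := card_ne_zero_of_isSig (k := k) hσ (isSig_W (σ := σ) N(D))
  have hWC := W_normalizer_le_centralizer hσ hD
  have hle : W σ N(D) ≤ W σ C(D) :=
    le_W hWC ((centralizer_le_normalizer' D).trans (le_normalizer_W _)) (isSig_W _)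
  have h1 : e * av (W σ N(D)) = e := by
    conv_lhs => rw [← hker]
    rw [mul_assoc, av_mul_av hle hY, hker]
  have hcen : (av (W σ N(D)) : CA k G) ∈ cen N(D) :=
    ⟨supp_mono (W_le _) (av_mem_supp _), av_mem_fix (le_normalizer_W _)⟩
  refine (hb₁.prim _ hcen (av_mul_av le_rfl hY)).resolve_right fun h0 => he.ne_zero ?_
  have h4 : e * av (W σ N(D)) = av (W σ N(D)) * e :=
    commute_of_fix_of_supp he.mem.2 (supp_mono hWC (av_mem_supp _))
  rw [← hbe, ← h1, h4, ← mul_assoc, h0, zero_mul]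

end CA

end Cfsg.Agent.BlockLib
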