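import Cfsg.Agent.BlockLib.KG.KerAv2
import Cfsg.Agent.BlockLib.KG.FirstMain

/-!
# `O_{π'}` of local subgroups and kernels of blocks: the main statements for idempotents
-/

set_option autoImplicit false

namespace Cfsg.Agent.BlockLib

namespace CA

open Cfsg

universe u v

local notation "C(" P ")" => Subgroup.centralizer (SetLike.coe P)
local notation "N(" P ")" => Subgroup.normalizer (SetLike.coe P)

variable {k : Type v} [Field k] {G : Type u} [Group G] [Fintype G] [Split k G]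
variable {p : ℕ} [Fact p.Prime] [CharP k p] {σ : Set ℕ}

omit [Split k G] [Fact p.Prime] [CharP k p] in
theorem br_mem_cen_rel {Q K A : Subgroup G} (hKA : K ≤ A) (hCK : A ⊓ C(Q) ≤ K) (hKN : K ≤ N(Q))
    {z : CA k G} (hz : z ∈ cen A) : br Q z ∈ cen K := by
  refine ⟨?_, br_mem_fix hKN (fix_anti hKA hz.2)⟩
  intro g hg
  by_cases hgC : g ∈ C(Q)
  · rw [br_apply_of_mem _ hgC]
    exact hz.1 g fun hgA => hg (hCK ⟨hgA, hgC⟩)
  · exact br_apply_of_not_mem _ hgC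

/-- Relative form of helper6's `lam_br_eq`. -/
theorem lam_br_eq_rel {Q K A : Subgroup G} (hQ : IsPGroup p Q) (hQA : Q ≤ A) (hKA : K ≤ A)
    (hCK : A ⊓ C(Q) ≤ K) (hKN : K ≤ N(Q)) {ft : CA k G} (hft : IsBlk K ft) {b : CA k G}
    (hb : IsBlk A b) (hbf : br Q b * ft = ft) {z : CA k G} (hz : z ∈ cen A) :
    lam K ft (br Q z) = lam A b z := by
  have hfix : ∀ {a : CA k G}, a ∈ cen A → a ∈ fix Q := fun ha => fix_anti hQA ha.2
  have hbc : ∀ {a : CA k G}, a ∈ cen A → br Q a ∈ cen K := fun ha =>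
    br_mem_cen_rel hKA hCK hKN ha
  apply lam_unique hft (hbc hz)
  obtain ⟨n, hn⟩ := lam_spec hb hz
  have hmem : z * b - lam A b z • b ∈ cen A :=
    Subalgebra.sub_mem _ (Subalgebra.mul_mem _ hz hb.mem) (Subalgebra.smul_mem _ hb.mem _)
  have h1 := congrArg (br Q) hn
  rw [br_pow hQ (hfix hmem), map_zero, map_sub, br_mul hQ (hfix hz) (hfix hb.mem), map_smul] at h1
  refine ⟨n, ?_⟩
  have h2 : br Q z * ft - lam A b z • ft = (br Q z * br Q b - lam A b z • br Q b) * ft := by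
    rw [sub_mul, mul_assoc, hbf, smul_mul_assoc, hbf]
  have hcomm : Commute (br Q z * br Q b - lam A b z • br Q b) ft := by
    apply cen_comm _ hft.mem
    exact Subalgebra.sub_mem _ (Subalgebra.mul_mem _ (hbc hz) (hbc hb.mem))
      (Subalgebra.smul_mem _ (hbc hb.mem) _)
  rw [h2, hcomm.mul_pow, h1, zero_mul]

/-- If the block `b₀` of `A ≥ C_G(Q)` induces `b`, every `b₀`-Brauer pair at `Q` is a `b`-Brauer
pair. -/
theorem br_mul_eq_of_induced {A Q : Subgroup G} (hQ : IsPGroup p Q) (hQA : Q ≤ A) (hCA : C(Q) ≤ A)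
    {b₀ e₀ b : CA k G} (hb₀ : IsBlk A b₀) (he₀ : IsBlk C(Q) e₀) (hbe : br Q b₀ * e₀ = e₀)
    (hb : IsBlk ⊤ b) (t : G → CA k G) (ht : ∀ g, t g ∈ cen A)
    (htbr : ∀ g, br Q (t g) = br Q (clsSum ⊤ g))
    (hind : ∀ g, lam A b₀ (t g) = lam ⊤ b (clsSum ⊤ g)) : br Q b * e₀ = e₀ := by
  have hCN := centralizer_le_normalizer' Q
  obtain ⟨b', hb', hbf'⟩ := H6.FirstMain.exists_blk_br_mul hQ le_rfl hCN he₀
  have : b = b' := by
    apply H6.FirstMain.blk_eq_of_lam_clsSum hb hb'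
    intro g
    rw [← hind g, ← lam_br_eq_rel hQ hQA hCA inf_le_right hCN he₀ hb₀ hbe (ht g), htbr g,
      H6.FirstMain.lam_br_eq hQ le_rfl hCN he₀ hb' hbf' (clsSum_mem_cen (Subgroup.mem_top g))]
  rw [this]
  exact hbf'

/-- A maximal pair at the defect group `D`, compatible with the Brauer correspondent. -/
theorem exists_isMaxBP_of_isDefGrp {b b₁ : CA k G} {D : Subgroup G} (hb : IsBlk ⊤ b)
    (hD : IsDefGrp p ⊤ b D) (hb₁ : IsBlk N(D) b₁) (hbb : br D b * b₁ = b₁) :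
    ∃ e, IsMaxBP p b D e ∧ b₁ * e = e := by
  obtain ⟨e, he⟩ := exists_isBPOf hb hD.isPGroup (hD.br_ne_zero hb)
  refine ⟨e, isMaxBP_of_isDefGrp he hD, ?_⟩
  have h1 : br D b = b₁ := (fm1 hb hD).1.eq_of_mul_ne_zero hb₁ (by rw [hbb]; exact hb₁.ne_zero)
  rw [← h1]
  exact he.2.2

/-- Brauer: if `O_σ(N_G(D))` is in the kernel of the Brauer correspondent of `b`, then `O_σ(A)` is
in the kernel of every block `b₀` of `A` inducing `b`, if `A ≥ C_G(Q)` with `Br_Q(b₀) ≠ 0`. -/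
theorem ker_of_induced (hσ : p ∉ σ) {b b₁ : CA k G} {D : Subgroup G} (hb : IsBlk ⊤ b)
    (hD : IsDefGrp p ⊤ b D) (hb₁ : IsBlk N(D) b₁) (hbb : br D b * b₁ = b₁)
    (hker : b₁ * av (W σ N(D)) = b₁) {A Q : Subgroup G} (hQ : IsPGroup p Q) (hQA : Q ≤ A)
    (hCA : C(Q) ≤ A) {b₀ : CA k G} (hb₀ : IsBlk A b₀) (hbr : br Q b₀ ≠ 0)
    (t : G → CA k G) (ht : ∀ g, t g ∈ cen A) (htbr : ∀ g, br Q (t g) = br Q (clsSum ⊤ g))
    (hind : ∀ g, lam A b₀ (t g) = lam ⊤ b (clsSum ⊤ g)) : b₀ * av (W σ A) = b₀ := by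
  obtain ⟨e, hmax, hbe⟩ := exists_isMaxBP_of_isDefGrp hb hD hb₁ hbb
  have h3 : e * av (W σ C(D)) = e :=
    ker_of_covers_normal hσ (centralizer_le_normalizer' D)
      (normalizer_le_normalizer_centralizer D) hker hbe hmax.1.1.2.mem
  have hfixQ : b₀ ∈ fix Q := fix_anti hQA hb₀.mem.2
  have hmem : br Q b₀ ∈ cen C(Q) := br_mem_cen (fix_anti hCA hb₀.mem.2)
  obtain ⟨e₀, he₀, hee⟩ := exists_blk_of_idem hmem (br_idem hQ hfixQ hb₀.idem) hbr
  have hbe₀ : br Q b₀ * e₀ = e₀ := by rw [cen_comm hmem he₀.mem, hee]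
  have h5 : IsBPOf p b Q e₀ :=
    ⟨⟨hQ, he₀⟩, hb, br_mul_eq_of_induced hQ hQA hCA hb₀ he₀ hbe₀ hb t ht htbr hind⟩
  obtain ⟨x, hx⟩ := hmax.exists_conj_subLE h5
  have h7 := (ker_cj_iff x Q e₀).mp (SubLE.ker_down hσ hx h3)
  have hi : A ⊓ C(Q) = C(Q) := inf_eq_right.mpr hCA
  exact ker_down hσ hQ (hQA.trans Subgroup.le_normalizer) hb₀ hfixQ (by rw [hi]; exact he₀) hbe₀
    (by rw [hi]; exact h7)

/-- Brauer: going up from a `b`-Brauer pair `(Q, e₀)` with `O_σ(C_G(Q))` a normal Hall subgroup in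
the kernel of `e₀` to the Brauer correspondent of `b`. -/
theorem ker_correspondent (hσ : p ∉ σ) {b b₁ : CA k G} {D : Subgroup G} (hb : IsBlk ⊤ b)
    (hD : IsDefGrp p ⊤ b D) (hb₁ : IsBlk N(D) b₁) (hbb : br D b * b₁ = b₁)
    {Q : Subgroup G} {e₀ : CA k G} (h : IsBPOf p b Q e₀)
    (hHall : ∀ y ∈ C(Q), IsSigElt σ y → y ∈ W σ C(Q)) (hker : e₀ * av (W σ C(Q)) = e₀) :
    b₁ * av (W σ N(D)) = b₁ := by
  obtain ⟨e, hmax, hbe⟩ := exists_isMaxBP_of_isDefGrp hb hD hb₁ hbb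
  obtain ⟨x, hx⟩ := hmax.exists_conj_subLE h
  have h1 := SubLE.ker_up hσ hx ⟨hall_cj hHall, (ker_cj_iff x Q e₀).mpr hker⟩
  exact ker_normalizer_of_ker_centralizer hσ hD.isPGroup hb₁ hmax.1.1.2 hbe h1.2

end CA

end Cfsg.Agent.BlockLib
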