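import Cfsg.Agent.BlockLib.KG.KerAv3
import Cfsg.Agent.H25.Cover2

/-!
# Normal `p'`-subgroups in the kernel of a block: translation to characters
-/

set_option autoImplicit false

namespace Cfsg.Agent.BlockLib

open Cfsg Cfsg.Agent.CharLib

universe u

local notation "C(" P ")" => Subgroup.centralizer (SetLike.coe P)
local notation "N(" P ")" => Subgroup.normalizer (SetLike.coe P)

variable {M : Ideal AlgInt} [M.IsPrime] {G : Type u} [Group G] [Fintype G]
variable {p : ℕ} [Fact p.Prime] [CharP (ResField M) p]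

theorem av_eq_epsS_principalBlock {N : Subgroup G} (hN : ¬ p ∣ Nat.card N) :
    (CA.av N : CA (ResField M) G) = epsS M N (principalBlock M N) :=
  (CA.isPrin_av (by rwa [Ne, CharP.cast_eq_zero_iff (ResField M) p])).unique
    (isPrin_epsS_principalBlock N)

theorem ker_iff_abs (hM : IsPModular p M) {N : Subgroup G} [hNn : N.Normal]
    (hN : ¬ p ∣ Nat.card N) {c : Set (IrrCharacter G)} (hc : IsPBlock M c) :
    (∀ χ ∈ c, ∀ x ∈ N, (χ : G → ℂ) x = (χ : G → ℂ) 1) ↔ eps M c * CA.av N = eps M c := by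
  classical
  letI : Fintype N := Fintype.ofFinite N
  have hN0 : (Nat.card N : ResField M) ≠ 0 := by rwa [Ne, CharP.cast_eq_zero_iff (ResField M) p]
  have hav := av_eq_epsS_principalBlock (M := M) hN
  have hpb : IsPBlock M (principalBlock M N) := isPBlock_principalBlock
  constructor
  · intro h
    obtain ⟨χ, hχ⟩ := pb_nonempty hc
    have h1 : classInner (fun n : N => (χ : G → ℂ) n)
        ((⟨fun _ => 1, isIrrCharacter_one⟩ : IrrCharacter N) : N → ℂ) = (χ : G → ℂ) 1 := by
      unfold classInner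
      simp only [map_one, mul_one]
      rw [Finset.sum_congr rfl (fun (n : N) _ => h χ hχ n n.2), Finset.sum_const, Finset.card_univ,
        nsmul_eq_mul, ← Nat.card_eq_fintype_card, ← mul_assoc, inv_mul_cancel₀, one_mul]
      exact Nat.cast_ne_zero.mpr Nat.card_pos.ne'
    have h2 : H25.Covers c (principalBlock M N) :=
      ⟨χ, hχ, ⟨fun _ => 1, isIrrCharacter_one⟩, SameBlock.refl' (Ideal.IsPrime.ne_top ‹_›) _, by
        rw [h1]; exact irr_apply_one_ne_zero χ⟩
    have h3 := (H25.covers_iff_mul_ne_zero hc hpb).mp h2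
    rw [← hav] at h3
    have hcen : (CA.av N : CA (ResField M) G) ∈ CA.cen ⊤ :=
      ⟨CA.mem_supp_top _, CA.av_mem_fix (by rw [Subgroup.normalizer_eq_top])⟩
    exact ((isBlk_eps hc).prim _ hcen (CA.av_mul_av le_rfl hN0)).resolve_right h3
  · intro h χ hχ x hx
    obtain ⟨m, hm, hm2⟩ := H2.exists_mult (isCharacter_restrict (isCharacter_of_irr χ.2) N)
    have h0 : ∀ θ : IrrCharacter N, θ ≠ ⟨fun _ => 1, isIrrCharacter_one⟩ → (m θ : ℂ) = 0 := by
      intro θ hθ
      by_contra hne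
      apply hθ
      have hb₁ : IsPBlock M (blockOf M (θ : N → ℂ)) := ⟨θ, rfl⟩
      have h1 := (H25.covers_iff_mul_ne_zero hc hb₁).mp
        ⟨χ, hχ, θ, mem_blockOf_self θ, by rw [hm2 θ]; exact hne⟩
      rw [← h, mul_assoc] at h1
      have h2 : (CA.av N : CA (ResField M) G) * epsS M N (blockOf M (θ : N → ℂ)) ≠ 0 :=
        right_ne_zero_of_mul h1
      rw [hav] at h2
      have h3 := epsS_injective hpb hb₁
        ((isBlk_epsS hpb).eq_of_mul_ne_zero (isBlk_epsS hb₁) h2)
      have h4 : θ ∈ principalBlock M N := by rw [h3]; exact mem_blockOf_self θ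
      exact (H25.eq_of_sameBlock_of_not_dvd hM hN
        (χ := ⟨fun _ => 1, isIrrCharacter_one⟩) (ψ := θ) h4).symm
    have key : ∀ n : N, (χ : G → ℂ) n =
        (m ⟨fun _ => 1, isIrrCharacter_one⟩ : ℂ) := by
      intro n
      have h1 := congrFun hm n
      rw [Finset.sum_apply, Finset.sum_eq_single (⟨fun _ => 1, isIrrCharacter_one⟩ : IrrCharacter N)
        (fun θ _ hθ => by rw [h0 θ hθ, zero_smul]; rfl)
        (fun h => absurd (Finset.mem_univ _) h)] at h1
      simpa using h1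
    rw [key ⟨x, hx⟩]
    exact (key 1).symm

theorem ker_iff_rel (hM : IsPModular p M) {H Y : Subgroup G} (hYH : Y ≤ H) (hn : H ≤ N(Y))
    (hY : ¬ p ∣ Nat.card Y) {c : Set (IrrCharacter H)} (hc : IsPBlock M c) :
    (∀ θ ∈ c, ∀ h : H, (h : G) ∈ Y → (θ : H → ℂ) h = (θ : H → ℂ) 1) ↔
      epsS M H c * CA.av Y = epsS M H c := by
  letI : Fintype H := Fintype.ofFinite H
  haveI : (Y.subgroupOf H).Normal := (Subgroup.normal_subgroupOf_iff_le_normalizer hYH).mpr hn
  have hcard : Nat.card (Y.subgroupOf H) = Nat.card Y :=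
    Nat.card_congr (Subgroup.subgroupOfEquivOfLe hYH).toEquiv
  have h1 := ker_iff_abs hM (N := Y.subgroupOf H) (by rwa [hcard]) hc
  have h2 : epsS M H c * CA.av Y = epsS M H c ↔
      eps M c * CA.av (Y.subgroupOf H) = eps M c := by
    have h3 : (CA.av Y : CA (ResField M) G) = CA.ext0 H (CA.av (Y.subgroupOf H)) := by
      rw [CA.ext0_av, CA.up_subgroupOf hYH]
    rw [epsS_eq_ext0, h3, ← map_mul]
    exact (CA.ext0_injective (k := ResField M) H).eq_iff
  rw [h2, ← h1]
  exact ⟨fun h θ hθ x hx => h θ hθ x hx, fun h θ hθ x hx => h θ hθ x hx⟩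

/-- `O_σ(H) ≤ ker c` in terms of idempotents. -/
theorem blockKer_iff (hM : IsPModular p M) {σ : Set ℕ} (hσ : p ∉ σ) {H : Subgroup G}
    {c : Set (IrrCharacter H)} (hc : IsPBlock M c) :
    (∀ n : H, n ∈ piCore σ ↥H → n ∈ blockKer c) ↔
      epsS M H c * CA.av (CA.W σ H) = epsS M H c := by
  rw [← ker_iff_rel hM (CA.W_le H) (CA.le_normalizer_W H)
    (fun h => hσ (CA.isSig_W H p Fact.out h)) hc]
  constructor
  · intro h θ hθ x hx
    exact h x (CA.coe_mem_up.mp hx) θ hθ
  · intro h n hn θ hθ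
    exact h θ hθ n (CA.coe_mem_up.mpr hn)

end Cfsg.Agent.BlockLib
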