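import Mathlib
import Cfsg.Prelude.Def_Blocks
import Cfsg.Agent.Lib.Helper23.WeakOrth
import Cfsg.Agent.CharLib.Core
import Cfsg.Agent.CharLib.Orth

/-! Blocks are the connected components of the linking relation
`∑_{x p-regular} χ(x) conj ψ(x) ≠ 0`; hence they do not depend on the maximal ideal. -/

set_option autoImplicit false

namespace Cfsg.Agent.BlockLib.LinkComp

open Cfsg Cfsg.Agent.CharLib Cfsg.Agent.BlockLib Cfsg.Agent.Lib.Helper23
open scoped ComplexConjugate

variable {G : Type*} [Group G] [Fintype G]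

/-- unnormalised inner product over the `p`-regular elements -/
noncomputable def cc (p : ℕ) (χ ψ : IrrCharacter G) : ℂ :=
  ∑ x ∈ Finset.univ.filter (fun x : G => ¬ p ∣ orderOf x), (χ : G → ℂ) x * conj ((ψ : G → ℂ) x)

theorem cc_symm (p : ℕ) (χ ψ : IrrCharacter G) : cc p ψ χ = conj (cc p χ ψ) := by
  unfold cc
  rw [map_sum]
  apply Finset.sum_congr rfl
  intro x _
  rw [map_mul, Complex.conj_conj, mul_comm]

theorem sum_all (χ ψ : IrrCharacter G) [Decidable (χ = ψ)] :
    ∑ g : G, (χ : G → ℂ) g * conj ((ψ : G → ℂ) g) = if χ = ψ then (Nat.card G : ℂ) else 0 := by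
  classical
  have h := classInner_irr χ.2 ψ.2
  rw [classInner_def] at h
  have hc : (Nat.card G : ℂ) ≠ 0 := by
    exact_mod_cast (Nat.card_pos (α := G)).ne'
  have h3 : ∑ g : G, (χ : G → ℂ) g * conj ((ψ : G → ℂ) g)
      = (Nat.card G : ℂ) * (if (χ : G → ℂ) = ψ then 1 else 0) := by
    rw [← h]; field_simp
  rw [h3]
  by_cases hh : χ = ψ
  · subst hh; simp
  · have : ¬ ((χ : G → ℂ) = ψ) := fun h => hh (Subtype.ext h)
    simp [hh, this]

theorem not_isConj_of_reg {p : ℕ} {w x : G} (hw : p ∣ orderOf w) (hx : ¬ p ∣ orderOf x) :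
    ¬ IsConj w x := by
  intro h
  obtain ⟨c, hc⟩ := isConj_iff.1 h
  apply hx
  rw [← hc]
  have : orderOf (c * w * c⁻¹) = orderOf w := by
    have := orderOf_injective (MulAut.conj c).toMonoidHom (MulAut.conj c).injective w
    simpa using this
  rwa [this]

theorem sum_conj_cc {p : ℕ} (x : G) (hx : ¬ p ∣ orderOf x) (ψ : IrrCharacter G) :
    ∑ χ : IrrCharacter G, conj ((χ : G → ℂ) x) * cc p χ ψ
      = (Nat.card G : ℂ) * conj ((ψ : G → ℂ) x) := by
  classical
  unfold cc
  simp only [Finset.mul_sum]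
  rw [Finset.sum_comm]
  have e1 : ∀ w : G, ∑ χ : IrrCharacter G,
      conj ((χ : G → ℂ) x) * ((χ : G → ℂ) w * conj ((ψ : G → ℂ) w))
      = conj ((ψ : G → ℂ) w) * ∑ χ : IrrCharacter G, (χ : G → ℂ) w * conj ((χ : G → ℂ) x) := by
    intro w
    rw [Finset.mul_sum]
    apply Finset.sum_congr rfl
    intro χ _
    ring
  rw [Finset.sum_subset (Finset.subset_univ _)]
  · rw [Finset.sum_comm]
    have e2 : ∀ χ : IrrCharacter G, ∑ w : G,
        conj ((χ : G → ℂ) x) * ((χ : G → ℂ) w * conj ((ψ : G → ℂ) w))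
        = conj ((χ : G → ℂ) x) * (if χ = ψ then (Nat.card G : ℂ) else 0) := by
      intro χ
      rw [← Finset.mul_sum, sum_all]
    rw [Finset.sum_congr rfl (fun χ _ => e2 χ)]
    simp only [mul_ite, mul_zero]
    rw [Finset.sum_ite_eq']
    simp [mul_comm]
  · intro w _ hw
    have hw' : p ∣ orderOf w := by
      by_contra h
      exact hw (Finset.mem_filter.2 ⟨Finset.mem_univ _, h⟩)
    rw [e1, sum_irr_mul_conj_of_not_isConj (not_isConj_of_reg hw' hx), mul_zero]

theorem sum_cc_mul {p : ℕ} (z : G) (hz : p ∣ orderOf z) (χ : IrrCharacter G) :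
    ∑ ψ : IrrCharacter G, cc p χ ψ * (ψ : G → ℂ) z = 0 := by
  classical
  unfold cc
  simp only [Finset.sum_mul]
  rw [Finset.sum_comm]
  apply Finset.sum_eq_zero
  intro w hw
  have hw' : ¬ p ∣ orderOf w := (Finset.mem_filter.1 hw).2
  have e1 : ∑ ψ : IrrCharacter G, (χ : G → ℂ) w * conj ((ψ : G → ℂ) w) * (ψ : G → ℂ) z
      = (χ : G → ℂ) w * ∑ ψ : IrrCharacter G, (ψ : G → ℂ) z * conj ((ψ : G → ℂ) w) := by
    rw [Finset.mul_sum]
    apply Finset.sum_congr rfl
    intro ψ _
    ring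
  rw [e1, sum_irr_mul_conj_of_not_isConj (not_isConj_of_reg hz hw'), mul_zero]

/-- weak orthogonality for sets closed under linking -/
theorem theta_zero {p : ℕ} (A : Set (IrrCharacter G)) [DecidablePred (· ∈ A)]
    (h1 : ∀ χ ψ, χ ∈ A → ψ ∉ A → cc p χ ψ = 0) (h2 : ∀ χ ψ, χ ∉ A → ψ ∈ A → cc p χ ψ = 0)
    (x z : G) (hx : ¬ p ∣ orderOf x) (hz : p ∣ orderOf z) :
    ∑ ψ ∈ Finset.univ.filter (· ∈ A), conj ((ψ : G → ℂ) x) * (ψ : G → ℂ) z = 0 := by
  classical
  have hc : (Nat.card G : ℂ) ≠ 0 := by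
    exact_mod_cast (Nat.card_pos (α := G)).ne'
  apply mul_left_cancel₀ hc
  rw [mul_zero, Finset.mul_sum]
  have e1 : ∀ ψ ∈ Finset.univ.filter (· ∈ A),
      (Nat.card G : ℂ) * (conj ((ψ : G → ℂ) x) * (ψ : G → ℂ) z)
      = ∑ χ ∈ Finset.univ.filter (· ∈ A), conj ((χ : G → ℂ) x) * cc p χ ψ * (ψ : G → ℂ) z := by
    intro ψ hψ
    have hψ' : ψ ∈ A := (Finset.mem_filter.1 hψ).2
    rw [← mul_assoc, ← sum_conj_cc x hx ψ, Finset.sum_mul]
    symm
    apply Finset.sum_subset (Finset.subset_univ _)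
    intro χ _ hχ
    have hχ' : χ ∉ A := fun h => hχ (Finset.mem_filter.2 ⟨Finset.mem_univ _, h⟩)
    rw [h2 χ ψ hχ' hψ', mul_zero, zero_mul]
  rw [Finset.sum_congr rfl e1, Finset.sum_comm]
  apply Finset.sum_eq_zero
  intro χ hχ
  have hχ' : χ ∈ A := (Finset.mem_filter.1 hχ).2
  have e2 : ∑ ψ ∈ Finset.univ.filter (· ∈ A), conj ((χ : G → ℂ) x) * cc p χ ψ * (ψ : G → ℂ) z
      = conj ((χ : G → ℂ) x) * ∑ ψ : IrrCharacter G, cc p χ ψ * (ψ : G → ℂ) z := by
    rw [Finset.mul_sum]
    rw [Finset.sum_subset (Finset.subset_univ _)]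
    · apply Finset.sum_congr rfl
      intro ψ _
      ring
    · intro ψ _ hψ
      have hψ' : ψ ∉ A := fun h => hψ (Finset.mem_filter.2 ⟨Finset.mem_univ _, h⟩)
      rw [h1 χ ψ hχ' hψ', mul_zero, zero_mul]
  rw [e2, sum_cc_mul z hz, mul_zero]

/-- the idempotent of a set closed under linking is locally integral at every `p`-modular ideal -/
theorem memLocalRing_idemSet {p : ℕ} [Fact p.Prime] {M : Ideal AlgInt} (hM : IsPModular p M)
    (A : Set (IrrCharacter G))
    (h1 : ∀ χ ψ, χ ∈ A → ψ ∉ A → cc p χ ψ = 0) (h2 : ∀ χ ψ, χ ∉ A → ψ ∈ A → cc p χ ψ = 0)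
    (g : G) : MemLocalRing M (idemSet A g) := by
  classical
  haveI := isPrime_of_isPModular hM
  have hirr : ∀ χ : IrrCharacter G, IsCharacter G (χ : G → ℂ) := fun χ => isCharacter_of_irr χ.2
  have hval : idemSet A g = (Nat.card G : ℂ)⁻¹ *
      ∑ ψ ∈ Finset.univ.filter (· ∈ A), conj ((ψ : G → ℂ) g) * (ψ : G → ℂ) 1 := by
    rw [idemSet, Finset.sum_apply, Finset.mul_sum]
    apply Finset.sum_congr
    · ext; simp
    · intro ψ _
      rw [idem]
      ring
  rw [hval]
  by_cases hg : p ∣ orderOf g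
  · have h0 := theta_zero A h1 h2 1 g (by simp [(Fact.out : p.Prime).one_lt.ne']) hg
    have h3 := congrArg conj h0
    rw [map_sum, map_zero] at h3
    have : ∑ ψ ∈ Finset.univ.filter (· ∈ A), conj ((ψ : G → ℂ) g) * (ψ : G → ℂ) 1 = 0 := by
      rw [← h3]
      apply Finset.sum_congr rfl
      intro ψ _
      rw [map_mul, Complex.conj_conj, mul_comm]
    rw [this, mul_zero]
    exact memLocalRing_zero (ne_top_of_isPModular hM)
  · obtain ⟨P⟩ : Nonempty (Sylow p G) := inferInstance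
    have hnat : ∀ ψ : IrrCharacter G, ∃ n : ℕ, ∑ z : (P : Subgroup G), (ψ : G → ℂ) z
        = (Nat.card (P : Subgroup G) : ℂ) * n := by
      intro ψ
      obtain ⟨n, hn⟩ := classInner_char_nat (isCharacter_restrict (hirr ψ) (P : Subgroup G))
        (isCharacter_of_irr (isIrrCharacter_one (G := (P : Subgroup G))))
      refine ⟨n, ?_⟩
      rw [classInner_def] at hn
      have hc : (Nat.card (P : Subgroup G) : ℂ) ≠ 0 := by
        exact_mod_cast (Nat.card_pos (α := (P : Subgroup G))).ne'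
      rw [← hn]
      simp only [map_one, mul_one]
      field_simp
    choose n hn using hnat
    have e1 : ∑ z : (P : Subgroup G), ∑ ψ ∈ Finset.univ.filter (· ∈ A),
        conj ((ψ : G → ℂ) g) * (ψ : G → ℂ) z
        = ∑ ψ ∈ Finset.univ.filter (· ∈ A), conj ((ψ : G → ℂ) g) * (ψ : G → ℂ) 1 := by
      rw [Finset.sum_eq_single (1 : (P : Subgroup G))]
      · rfl
      · intro z _ hz
        apply theta_zero A h1 h2 g z hg
        obtain ⟨k, hk⟩ := (IsPGroup.iff_orderOf.1 P.2 z)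
        have hk' : orderOf (z : G) = p ^ k := by rw [Subgroup.orderOf_coe, hk]
        rw [hk']
        have : k ≠ 0 := by
          rintro rfl
          apply hz
          simpa using hk
        exact dvd_pow_self p this
      · intro h; exact absurd (Finset.mem_univ _) h
    rw [← e1, Finset.sum_comm]
    have e2 : ∑ ψ ∈ Finset.univ.filter (· ∈ A), ∑ z : (P : Subgroup G),
        conj ((ψ : G → ℂ) g) * (ψ : G → ℂ) z
        = (Nat.card (P : Subgroup G) : ℂ) *
          ∑ ψ ∈ Finset.univ.filter (· ∈ A), conj ((ψ : G → ℂ) g) * (n ψ : ℂ) := by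
      rw [Finset.mul_sum]
      apply Finset.sum_congr rfl
      intro ψ _
      rw [← Finset.mul_sum, hn ψ]
      ring
    rw [e2, ← mul_assoc]
    have hidx : (Nat.card G : ℂ) = (Nat.card (P : Subgroup G) : ℂ) * ((P : Subgroup G).index : ℂ) := by
      rw [← Nat.cast_mul, Subgroup.card_mul_index]
    have hc : (Nat.card (P : Subgroup G) : ℂ) ≠ 0 := by
      exact_mod_cast (Nat.card_pos (α := (P : Subgroup G))).ne'
    have hi : ((P : Subgroup G).index : ℂ) ≠ 0 := by
      exact_mod_cast (P : Subgroup G).index_ne_zero_of_finite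
    have e3 : (Nat.card G : ℂ)⁻¹ * (Nat.card (P : Subgroup G) : ℂ)
        = ((P : Subgroup G).index : ℂ)⁻¹ := by
      rw [hidx]; field_simp
    rw [e3]
    apply memLocalRing_mul (memLocalRing_natCast_inv hM P.not_dvd_index)
    apply memLocalRing_of_isIntegral (ne_top_of_isPModular hM)
    apply IsIntegral.sum
    intro ψ _
    apply IsIntegral.mul
    · rw [← isCharacter_inv (hirr ψ)]
      exact isCharacter_isIntegral (hirr ψ) _
    · exact_mod_cast (isIntegral_algebraMap (R := ℤ) (A := ℂ) (x := (n ψ : ℤ)))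

/-- a set closed under linking is a union of blocks -/
theorem mem_of_sameBlock {p : ℕ} [Fact p.Prime] {M : Ideal AlgInt} (hM : IsPModular p M)
    (A : Set (IrrCharacter G))
    (h1 : ∀ χ ψ, χ ∈ A → ψ ∉ A → cc p χ ψ = 0) (h2 : ∀ χ ψ, χ ∉ A → ψ ∈ A → cc p χ ψ = 0)
    (χ ψ : IrrCharacter G) (hχ : χ ∈ A) (h : SameBlock M (χ : G → ℂ) (ψ : G → ℂ)) : ψ ∈ A := by
  classical
  haveI := isPrime_of_isPModular hM
  by_contra hψ
  have := memLocalIdeal_omega_sub (isClassFunction_of_irr χ.2) (isClassFunction_of_irr ψ.2) h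
    (isClassFunction_idemSet A) (memLocalRing_idemSet hM A h1 h2)
  rw [omega_idemSet, omega_idemSet, if_pos hχ, if_neg hψ, sub_zero] at this
  exact not_memLocalIdeal_one this

/-- linked characters lie in the same block -/
theorem sameBlock_of_cc_ne_zero {p : ℕ} {M : Ideal AlgInt} (hM : IsPModular p M)
    (χ ψ : IrrCharacter G) (h : cc p χ ψ ≠ 0) : SameBlock M (χ : G → ℂ) (ψ : G → ℂ) := by
  classical
  haveI := isPrime_of_isPModular hM
  by_contra hn
  apply h
  apply reg_orth_of_int hM (blockOf M (χ : G → ℂ)) _ χ ψ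
  · exact SameBlock.refl' (ne_top_of_isPModular hM) _
  · exact hn
  · intro g
    rw [← blockCoeff_eq_idemSet]
    exact memLocalRing_blockCoeff ⟨χ, rfl⟩ g

/-- blocks do not depend on the maximal ideal -/
theorem sameBlock_indep {p : ℕ} [Fact p.Prime] {M M' : Ideal AlgInt} (hM : IsPModular p M)
    (hM' : IsPModular p M') (χ ψ : IrrCharacter G) (h : SameBlock M (χ : G → ℂ) (ψ : G → ℂ)) :
    SameBlock M' (χ : G → ℂ) (ψ : G → ℂ) := by
  classical
  haveI := isPrime_of_isPModular hM'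
  let R : IrrCharacter G → IrrCharacter G → Prop := fun a b => cc p a b ≠ 0
  let A : Set (IrrCharacter G) := {θ | Relation.EqvGen R χ θ}
  have h1 : ∀ a b, a ∈ A → b ∉ A → cc p a b = 0 := by
    intro a b ha hb
    by_contra hne
    exact hb (Relation.EqvGen.trans _ _ _ ha (Relation.EqvGen.rel _ _ hne))
  have h2 : ∀ a b, a ∉ A → b ∈ A → cc p a b = 0 := by
    intro a b ha hb
    by_contra hne
    exact ha (Relation.EqvGen.trans _ _ _ hb (Relation.EqvGen.symm _ _ (Relation.EqvGen.rel _ _ hne)))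
  have hψ : ψ ∈ A := mem_of_sameBlock hM A h1 h2 χ ψ (Relation.EqvGen.refl _) h
  have key : ∀ a b, Relation.EqvGen R a b → SameBlock M' (a : G → ℂ) (b : G → ℂ) := by
    intro a b hab
    induction hab with
    | rel a b hab => exact sameBlock_of_cc_ne_zero hM' a b hab
    | refl a => exact SameBlock.refl' (ne_top_of_isPModular hM') _
    | symm a b _ ih => exact SameBlock.symm' ih
    | trans a b c _ _ ih1 ih2 => exact SameBlock.trans' ih1 ih2
  exact key χ ψ hψ

end Cfsg.Agent.BlockLib.LinkComp
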