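import Mathlib
import Cfsg.Agent.BlockLib.KG.LinkComp
import Cfsg.Agent.Lib.Helper10.GaloisIrr
import Cfsg.Agent.CharLib.L.GaloisChar

/-! Galois conjugation `χ ↦ χ (· ^ m)` permutes blocks; Galois-stable sums are rational. -/

set_option autoImplicit false

namespace Cfsg.Agent.BlockLib.LinkGal

open Cfsg Cfsg.Agent.CharLib Cfsg.Agent.BlockLib Cfsg.Agent.Lib.Helper23 Cfsg.Agent.Lib.Helper10
open Cfsg.Agent.BlockLib.LinkComp Cfsg.Agent.CharLib.L
open scoped ComplexConjugate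

variable {G : Type*} [Group G] [Fintype G]

/-- the Galois conjugate `g ↦ χ (g ^ m)` -/
noncomputable def gal (m : ℕ) (hm : m.Coprime (Nat.card G)) (χ : IrrCharacter G) : IrrCharacter G :=
  ⟨fun g => (χ : G → ℂ) (g ^ m), isIrrCharacter_pow χ.2 m hm⟩

theorem gal_apply (m : ℕ) (hm : m.Coprime (Nat.card G)) (χ : IrrCharacter G) (g : G) :
    (gal m hm χ : G → ℂ) g = (χ : G → ℂ) (g ^ m) := rfl

theorem gal_injective (m : ℕ) (hm : m.Coprime (Nat.card G)) :
    Function.Injective (gal (G := G) m hm) := by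
  intro χ ψ h
  apply Subtype.ext
  funext g
  obtain ⟨y, rfl⟩ := (powCoprime hm.symm).surjective g
  exact congrArg (fun φ : IrrCharacter G => (φ : G → ℂ) y) h

theorem cc_gal (p m : ℕ) (hm : m.Coprime (Nat.card G)) (χ ψ : IrrCharacter G) :
    cc p (gal m hm χ) (gal m hm ψ) = cc p χ ψ := by
  classical
  unfold cc
  apply Finset.sum_equiv (powCoprime hm.symm)
  · intro x
    simp only [Finset.mem_filter, Finset.mem_univ, true_and, powCoprime_apply]
    have hc : (orderOf x).Coprime m :=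
      Nat.Coprime.coprime_dvd_left (orderOf_dvd_natCard x) hm.symm
    rw [hc.orderOf_pow]
  · intro x _
    rfl

/-- Galois conjugation preserves blocks -/
theorem sameBlock_gal {p : ℕ} [Fact p.Prime] {M : Ideal AlgInt} (hM : IsPModular p M)
    (m : ℕ) (hm : m.Coprime (Nat.card G)) (χ ψ : IrrCharacter G)
    (h : SameBlock M (χ : G → ℂ) (ψ : G → ℂ)) :
    SameBlock M (gal m hm χ : G → ℂ) (gal m hm ψ : G → ℂ) := by
  classical
  haveI := isPrime_of_isPModular hM
  let A : Set (IrrCharacter G) := {θ | SameBlock M (gal m hm χ : G → ℂ) (gal m hm θ : G → ℂ)}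
  have h1 : ∀ a b, a ∈ A → b ∉ A → cc p a b = 0 := by
    intro a b ha hb
    by_contra hne
    rw [← cc_gal p m hm] at hne
    exact hb (SameBlock.trans' ha (sameBlock_of_cc_ne_zero hM _ _ hne))
  have h2 : ∀ a b, a ∉ A → b ∈ A → cc p a b = 0 := by
    intro a b ha hb
    by_contra hne
    rw [← cc_gal p m hm] at hne
    exact ha (SameBlock.trans' hb (SameBlock.symm' (sameBlock_of_cc_ne_zero hM _ _ hne)))
  exact mem_of_sameBlock hM A h1 h2 χ ψ (SameBlock.refl' (ne_top_of_isPModular hM) _) h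

theorem gal_mem_principalBlock {p : ℕ} [Fact p.Prime] {M : Ideal AlgInt} (hM : IsPModular p M)
    (m : ℕ) (hm : m.Coprime (Nat.card G)) (χ : IrrCharacter G) (h : χ ∈ principalBlock M G) :
    gal m hm χ ∈ principalBlock M G :=
  sameBlock_gal hM m hm ⟨_, isIrrCharacter_one⟩ χ h

/-- reindexing a sum over a Galois stable set -/
theorem sum_gal (B : Finset (IrrCharacter G)) (m : ℕ) (hm : m.Coprime (Nat.card G))
    (hB : ∀ χ ∈ B, gal m hm χ ∈ B) (F : IrrCharacter G → ℂ) :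
    ∑ χ ∈ B, F (gal m hm χ) = ∑ χ ∈ B, F χ := by
  classical
  have himg : B.image (gal m hm) = B := by
    apply Finset.eq_of_subset_of_card_le
    · intro θ hθ
      obtain ⟨χ, hχ, rfl⟩ := Finset.mem_image.1 hθ
      exact hB χ hχ
    · rw [Finset.card_image_of_injective _ (gal_injective m hm)]
  conv_rhs => rw [← himg]
  rw [Finset.sum_image (fun a _ b _ h => gal_injective m hm h)]

/-- the value of an embedding on a character value -/
theorem algHom_irr (χ : IrrCharacter G) (g : G) (φ : QBar →ₐ[ℚ] ℂ) (m : ℕ)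
    (hφ : ∀ ω : QBar, ω ^ (Nat.card G) = 1 → φ ω = (ω : ℂ) ^ m) (y : QBar)
    (hy : (y : ℂ) = (χ : G → ℂ) g) : φ y = (χ : G → ℂ) (g ^ m) := by
  obtain ⟨k, ρ, _, hch⟩ := χ.2
  rw [← hch] at hy ⊢
  exact algHom_character ρ g (Nat.card G) Nat.card_pos (pow_card_eq_one') φ m hφ y hy

theorem irr_mem_QBar (χ : IrrCharacter G) (g : G) : (χ : G → ℂ) g ∈ QBar := by
  obtain ⟨k, ρ, _, hch⟩ := χ.2
  rw [← hch]
  exact character_mem_QBar ρ g

/-- a Galois stable sum of products of two character values is a rational integer -/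
theorem exists_int_sum (B : Finset (IrrCharacter G))
    (hB : ∀ (m : ℕ) (hm : m.Coprime (Nat.card G)), ∀ χ ∈ B, gal m hm χ ∈ B) (x y : G) :
    ∃ n : ℤ, ∑ χ ∈ B, (χ : G → ℂ) x * (χ : G → ℂ) y = n := by
  classical
  have hint : IsIntegral ℤ (∑ χ ∈ B, (χ : G → ℂ) x * (χ : G → ℂ) y) := by
    apply IsIntegral.sum
    intro χ _
    exact (isCharacter_isIntegral (isCharacter_of_irr χ.2) x).mul
      (isCharacter_isIntegral (isCharacter_of_irr χ.2) y)
  let Y : QBar := ∑ χ ∈ B, (⟨(χ : G → ℂ) x, irr_mem_QBar χ x⟩ : QBar) * ⟨(χ : G → ℂ) y, irr_mem_QBar χ y⟩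
  have hY : (Y : ℂ) = ∑ χ ∈ B, (χ : G → ℂ) x * (χ : G → ℂ) y := by
    simp [Y]
  obtain ⟨q, hq⟩ := exists_rat_of_fixed Y (by
    intro φ
    obtain ⟨m, hm, hφ⟩ := exists_pow_of_algHom (Nat.card G) Nat.card_pos φ
    rw [hY]
    simp only [Y, map_sum, map_mul]
    rw [← sum_gal B m hm (hB m hm) (fun χ => (χ : G → ℂ) x * (χ : G → ℂ) y)]
    apply Finset.sum_congr rfl
    intro χ _
    rw [algHom_irr χ x φ m hφ _ rfl, algHom_irr χ y φ m hφ _ rfl]
    rfl)
  rw [hY] at hq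
  obtain ⟨n, hn⟩ := exists_int_of_isIntegral_of_rat hint hq
  exact ⟨n, hn⟩

end Cfsg.Agent.BlockLib.LinkGal
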