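import Cfsg.Agent.BlockLib.KG.PReg
import Cfsg.Agent.BlockLib.KG.Inertial

/-!
# Nilpotent blocks and normal subgroups of `p`-power index
-/

set_option autoImplicit false

namespace Cfsg.Agent.BlockLib

namespace CA

universe u v

local notation "C(" P ")" => Subgroup.centralizer (SetLike.coe P)
local notation "N(" P ")" => Subgroup.normalizer (SetLike.coe P)

variable {k : Type v} [Field k] {G : Type u} [Group G] [Fintype G]

/-- The block `c` of the subgroup `N` is nilpotent (as a block of `N`). -/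
def IsNilBlkIn (p : ℕ) (N : Subgroup G) (c : CA k G) : Prop :=
  IsBlk N c ∧ ∀ (R : Subgroup G) (g : CA k G), IsPGroup p R → R ≤ N → IsBlk (N ⊓ C(R)) g →
    br R c * g = g → ∀ x ∈ N, x ∈ N(R) → cj x g = g → ¬ p ∣ orderOf x → x ∈ C(R)

theorem isNilBlk_iff_isNilBlkIn {p : ℕ} (N : Subgroup G) [Fintype N] (c : CA k N) :
    IsNilBlk p c ↔ IsNilBlkIn p N (ext0 N c) := by
  constructor
  · rintro ⟨hc, h⟩
    refine ⟨isBlk_ext0 N hc, fun R g hR hRN hg hbr x hx hxN hxg hreg => ?_⟩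
    have hup : up N (R.subgroupOf N) = R := up_subgroupOf hRN
    have hgs : ext0 N (res N g) = g := ext0_res N (supp_mono inf_le_left hg.mem.1)
    have h1 : IsBPOf p c (R.subgroupOf N) (res N g) := by
      refine ⟨⟨?_, ?_⟩, hc, ?_⟩
      · rw [← isPGroup_up_iff (H := N), hup]
        exact hR
      · rw [← isBlk_ext0_up_iff N, up_centralizer, hup, hgs]
        exact hg
      · apply ext0_injective N
        rw [map_mul, ext0_br, hup, hgs, hbr]
    have h2 : (⟨x, hx⟩ : N) ∈ stab (R.subgroupOf N) (res N g) := by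
      refine ⟨?_, ?_⟩
      · rw [← coe_mem_normalizer_up, hup]
        exact hxN
      · apply ext0_injective N
        rw [ext0_cj, hgs]
        exact hxg
    have h3 := h _ _ h1 _ h2 (by rw [Subgroup.orderOf_mk]; exact hreg)
    rw [← coe_mem_centralizer_up, hup] at h3
    exact h3
  · rintro ⟨hc, h⟩
    have hc' : IsBlk (⊤ : Subgroup N) c := by
      rw [← isBlk_ext0_up_iff N, up_top]
      exact hc
    refine ⟨hc', fun R g hRg x hx hreg => ?_⟩
    rw [← coe_mem_centralizer_up]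
    refine h (up N R) (ext0 N g) (isPGroup_up_iff.mpr hRg.1.1) (up_le R) ?_ ?_ x x.2 ?_ ?_ ?_
    · rw [← up_centralizer, isBlk_ext0_up_iff]
      exact hRg.1.2
    · rw [← ext0_br, ← map_mul, hRg.2.2]
    · exact coe_mem_normalizer_up.mpr hx.1
    · rw [← ext0_cj, hx.2]
    · rw [Subgroup.orderOf_coe]
      exact hreg

theorem cj_trS {H : Subgroup G} {x : G} (hx : x ∈ N(H)) (a : CA k G) :
    cj x (trS H a) = trS H (cj x a) := by
  rw [trS, trS, map_sum]
  refine Finset.sum_nbij' (fun a => cj x a) (fun a => cj x⁻¹ a) ?_ ?_ ?_ ?_ ?_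
  · intro a' ha'
    obtain ⟨h, hh, rfl⟩ := mem_conjs.mp ha'
    refine mem_conjs.mpr ⟨x * h * x⁻¹, (Subgroup.mem_normalizer_iff.mp hx h).mp hh, ?_⟩
    rw [← cj_mul, ← cj_mul]
    congr 1
    group
  · intro a' ha'
    obtain ⟨h, hh, rfl⟩ := mem_conjs.mp ha'
    refine mem_conjs.mpr ⟨x⁻¹ * h * x, ?_, ?_⟩
    · have := (Subgroup.mem_normalizer_iff.mp (Subgroup.inv_mem _ hx) h).mp hh
      rwa [inv_inv] at this
    · rw [← cj_mul, ← cj_mul]
  · intro a _; simp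
  · intro a _; simp
  · intro a _; rfl

omit [Fintype G] in
/-- A `p`-regular element centralizing `R₀` and acting trivially on `R / R₀` centralizes the
`p`-group `R`. -/
theorem mem_centralizer_of_series {p : ℕ} [hp : Fact p.Prime] {R R₀ : Subgroup G}
    (hR₀ : IsPGroup p R₀) {x : G} (hx₀ : x ∈ C(R₀))
    (hser : ∀ r ∈ R, r⁻¹ * (x * r * x⁻¹) ∈ R₀) (hreg : ¬ p ∣ orderOf x) : x ∈ C(R) := by
  rw [Subgroup.mem_centralizer_iff]
  intro r hr
  set z := r⁻¹ * (x * r * x⁻¹) with hz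
  have hzR : z ∈ R₀ := hser r hr
  have hxz : z * x = x * z := (Subgroup.mem_centralizer_iff.mp hx₀) z hzR
  have hconj : x * r * x⁻¹ = r * z := by rw [hz]; group
  have hpow : ∀ j : ℕ, x ^ j * r * (x ^ j)⁻¹ = r * z ^ j := by
    intro j
    induction j with
    | zero => simp
    | succ j ih =>
      have hxzj : x * z ^ j * x⁻¹ = z ^ j := by
        have : Commute x z := hxz.symm
        rw [(this.pow_right j).eq, mul_inv_cancel_right]
      calc x ^ (j + 1) * r * (x ^ (j + 1))⁻¹ = x * (x ^ j * r * (x ^ j)⁻¹) * x⁻¹ := by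
            rw [pow_succ']; group
        _ = x * (r * z ^ j) * x⁻¹ := by rw [ih]
        _ = (x * r * x⁻¹) * (x * z ^ j * x⁻¹) := by group
        _ = r * z ^ (j + 1) := by rw [hconj, hxzj, pow_succ', mul_assoc]
  have h1 : z ^ orderOf x = 1 := by
    have := hpow (orderOf x)
    rw [pow_orderOf_eq_one] at this
    simpa using this.symm
  obtain ⟨a, ha⟩ := hR₀ ⟨z, hzR⟩
  have h2 : z ^ (p ^ a) = 1 := congrArg Subtype.val ha
  have h3 : z = 1 := by
    have hcop : Nat.Coprime (p ^ a) (orderOf x) :=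
      Nat.Coprime.pow_left _ ((Nat.Prime.coprime_iff_not_dvd hp.out).mpr hreg)
    have := GrpAux.mem_of_pow_mem_of_coprime (K := (⊥ : Subgroup G)) (x := z) hcop
      (by rw [h2]; exact Subgroup.one_mem _) (by rw [h1]; exact Subgroup.one_mem _)
    exact Subgroup.mem_bot.mp this
  rw [h3, mul_one] at hconj
  calc r * x = x * r * x⁻¹ * x := by rw [hconj]
    _ = x * r := by group

omit [Fintype G] in
theorem mem_normalizer_inf_centralizer {N : Subgroup G} [hN : N.Normal] {R : Subgroup G} {x : G}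
    (hx : x ∈ N(R)) : x ∈ N(N ⊓ C(R)) := by
  apply mem_normalizer_of_cjs_eq
  rw [cjs_inf, ← centralizer_cjs, cjs_eq_of_mem_normalizer hx,
    cjs_eq_of_mem_normalizer (by rw [Subgroup.normalizer_eq_top]; trivial)]

variable [Split k G] {p : ℕ} [Fact p.Prime] [CharP k p]

/-- If `c` is nilpotent as a block of `G` it is nilpotent as a block of `N`. -/
theorem IsNilBlk.isNilBlkIn [PReg k G p] {N : Subgroup G} [hN : N.Normal]
    (hreg : ∀ x : G, ¬ p ∣ orderOf x → x ∈ N) {c : CA k G} (hc : IsBlk N c)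
    (hn : IsNilBlk p c) : IsNilBlkIn p N c := by
  refine ⟨hc, fun R g hR hRN hg hbr x hx hxN hxg hxreg => ?_⟩
  have hΓN : N ⊓ C(R) ≤ C(R) := inf_le_right
  have hΓn : C(R) ≤ N(N ⊓ C(R)) := fun γ hγ =>
    mem_normalizer_inf_centralizer (centralizer_le_normalizer' R hγ)
  have hgT : IsBlk (C(R) ⊓ stab (N ⊓ C(R)) g) g :=
    hg.of_preg (le_inf_stab hΓN hg) (fun y hy hyreg => ⟨hreg y hyreg, hy.1⟩) mem_fix_inf_stab
  have hG : IsBlk C(R) (trS C(R) g) := isBlk_trS hΓN hΓn hg hgT hg.idem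
  have hbrfix : br R c ∈ fix C(R) :=
    br_mem_fix (centralizer_le_normalizer' R) (fix_anti le_top hn.1.mem.2)
  have hpair : IsBPOf p c R (trS C(R) g) := by
    refine ⟨⟨hR, hG⟩, hn.1, ?_⟩
    rw [trS, Finset.mul_sum]
    refine Finset.sum_congr rfl fun a' ha' => ?_
    obtain ⟨γ, hγ, rfl⟩ := mem_conjs.mp ha'
    have := congrArg (cj γ) hbr
    rwa [map_mul, mem_fix_iff_cj.mp hbrfix γ hγ] at this
  have hst : x ∈ stab R (trS C(R) g) :=
    ⟨hxN, by rw [cj_trS (normalizer_le_normalizer_centralizer R hxN), hxg]⟩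
  exact hn.2 R _ hpair x hst hxreg

/-- If `c` is nilpotent as a block of `N` it is nilpotent as a block of `G`. -/
theorem IsNilBlkIn.isNilBlk [PReg k G p] {N : Subgroup G} [hN : N.Normal]
    (hreg : ∀ x : G, ¬ p ∣ orderOf x → x ∈ N) {m : ℕ} (hpow : ∀ γ : G, γ ^ (p ^ m) ∈ N)
    {c : CA k G} (hcG : IsBlk ⊤ c) (hn : IsNilBlkIn p N c) : IsNilBlk p c := by
  refine ⟨hcG, fun R g hRg x hx hxreg => ?_⟩
  have hxN : x ∈ N := hreg x hxreg
  have hNx : cjs x N = N :=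
    cjs_eq_of_mem_normalizer (by rw [Subgroup.normalizer_eq_top]; trivial)
  obtain ⟨g₀, hle⟩ := exists_subLE hRg.1 (R ⊓ N) inf_le_left
  have hR₀bp : IsBP p (R ⊓ N) g₀ := hle.isBP hRg.1
  have hxR₀ : x ∈ N(R ⊓ N) :=
    mem_normalizer_of_cjs_eq (by rw [cjs_inf, cjs_eq_of_mem_normalizer hx.1, hNx])
  have hxg₀ : cj x g₀ = g₀ := by
    have h1 := hle.cj x
    simp only [cjs_eq_of_mem_normalizer hxR₀, cjs_eq_of_mem_normalizer hx.1, hx.2] at h1
    exact SubLE.unique hRg.1 h1 hle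
  have hof : IsBPOf p c (R ⊓ N) g₀ := hle.isBPOf_iff.mpr hRg
  obtain ⟨gN, hgN, hne⟩ := exists_blk_mul_ne_zero (N ⊓ C(R ⊓ N)) hR₀bp.2.ne_zero
  have hg₀cen : g₀ ∈ cen (N ⊓ C(R ⊓ N)) := by
    refine ⟨fun y hy => ?_, fix_anti inf_le_right hR₀bp.2.mem.2⟩
    by_cases hyC : y ∈ C(R ⊓ N)
    · apply PReg.reg (p := p) _ g₀ hR₀bp.2 y
      by_contra hnd
      exact hy ⟨hreg y hnd, hyC⟩
    · exact hR₀bp.2.mem.1 y hyC
  have hgg : gN * g₀ = gN := (hgN.prim g₀ hg₀cen hR₀bp.2.idem).resolve_right hne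
  have hgg' : g₀ * gN = gN := by rw [cen_comm hg₀cen hgN.mem, hgg]
  have hbr : br (R ⊓ N) c * gN = gN := by
    calc br (R ⊓ N) c * gN = br (R ⊓ N) c * g₀ * gN := by rw [mul_assoc, hgg']
      _ = gN := by rw [hof.2.2, hgg']
  have hΓn : C(R ⊓ N) ≤ N(N ⊓ C(R ⊓ N)) := fun γ hγ =>
    mem_normalizer_inf_centralizer (centralizer_le_normalizer' _ hγ)
  have hFR := (isBlk_mul_of_ne_zero (N := N ⊓ C(R ⊓ N)) (H := C(R ⊓ N)) inf_le_right hΓn hgN
    hR₀bp.2 (by rw [hgg']; exact hgN.ne_zero)).2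
  rw [hgg'] at hFR
  have hxΓ : x ∈ N(N ⊓ C(R ⊓ N)) := mem_normalizer_inf_centralizer hxR₀
  have hxg : IsBlk (N ⊓ C(R ⊓ N)) (cj x gN) := hgN.cj_of_mem_normalizer hxΓ
  have h2 : cj x gN * g₀ = cj x gN := by
    have := congrArg (cj x) hgg
    rwa [map_mul, hxg₀] at this
  obtain ⟨γ, hγ, hγx⟩ : ∃ γ ∈ C(R ⊓ N), cj γ gN = cj x gN := by
    by_contra hcon
    push Not at hcon
    apply hxg.ne_zero
    rw [← h2, ← hFR, trS, Finset.mul_sum]
    refine Finset.sum_eq_zero fun a' ha' => ?_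
    obtain ⟨γ, hγ, rfl⟩ := mem_conjs.mp ha'
    exact hxg.mul_eq_zero_of_ne (hgN.cj_of_mem_normalizer (hΓn hγ)) (fun h => hcon γ hγ h.symm)
  have hind : ∀ j : ℕ, cj (x ^ j) gN = cj (γ ^ j) gN := by
    intro j
    induction j with
    | zero => simp
    | succ j ih =>
      have hγj : γ ^ j ∈ C(R ⊓ N) := Subgroup.pow_mem _ hγ j
      have hn1 : x * γ ^ j * x⁻¹ * (γ ^ j)⁻¹ ∈ N ⊓ C(R ⊓ N) := by
        refine ⟨?_, ?_⟩
        · have h3 : γ ^ j * x⁻¹ * (γ ^ j)⁻¹ ∈ N := hN.conj_mem _ (N.inv_mem hxN) _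
          have h4 := N.mul_mem hxN h3
          have h5 : x * (γ ^ j * x⁻¹ * (γ ^ j)⁻¹) = x * γ ^ j * x⁻¹ * (γ ^ j)⁻¹ := by group
          rwa [h5] at h4
        · refine Subgroup.mul_mem _ ?_ (Subgroup.inv_mem _ hγj)
          exact (Subgroup.mem_normalizer_iff.mp
            (normalizer_le_normalizer_centralizer _ hxR₀) _).mp hγj
      have hblk : IsBlk (N ⊓ C(R ⊓ N)) (cj (γ ^ (j + 1)) gN) :=
        hgN.cj_of_mem_normalizer (hΓn (Subgroup.pow_mem _ hγ _))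
      calc cj (x ^ (j + 1)) gN = cj x (cj (x ^ j) gN) := by rw [pow_succ', cj_mul]
        _ = cj x (cj (γ ^ j) gN) := by rw [ih]
        _ = cj (x * γ ^ j * x⁻¹) (cj x gN) := by
            rw [← cj_mul, ← cj_mul]
            congr 1
            group
        _ = cj (x * γ ^ j * x⁻¹) (cj γ gN) := by rw [hγx]
        _ = cj (x * γ ^ j * x⁻¹ * (γ ^ j)⁻¹) (cj (γ ^ (j + 1)) gN) := by
            rw [← cj_mul, ← cj_mul]
            congr 1
            rw [pow_succ]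
            group
        _ = cj (γ ^ (j + 1)) gN := mem_fix_iff_cj.mp hblk.mem.2 _ hn1
  have hstab : x ∈ stab (N ⊓ C(R ⊓ N)) gN := by
    apply GrpAux.mem_of_pow_mem_of_coprime (a := p ^ m) (b := orderOf x)
    · exact Nat.Coprime.pow_left _ ((Nat.Prime.coprime_iff_not_dvd Fact.out).mpr hxreg)
    · refine ⟨Subgroup.pow_mem _ hxΓ _, ?_⟩
      rw [hind]
      exact mem_fix_iff_cj.mp hgN.mem.2 _ ⟨hpow γ, Subgroup.pow_mem _ hγ _⟩
    · rw [pow_orderOf_eq_one]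
      exact Subgroup.one_mem _
  have hxC₀ : x ∈ C(R ⊓ N) :=
    hn.2 (R ⊓ N) gN hR₀bp.1 inf_le_right hgN hbr x hxN hxR₀ hstab.2 hxreg
  refine mem_centralizer_of_series hR₀bp.1 hxC₀ (fun r hr => ⟨?_, ?_⟩) hxreg
  · exact R.mul_mem (R.inv_mem hr) ((Subgroup.mem_normalizer_iff.mp hx.1 r).mp hr)
  · have h3 : r⁻¹ * x * r⁻¹⁻¹ ∈ N := hN.conj_mem _ hxN _
    have h4 := N.mul_mem h3 (N.inv_mem hxN)
    have h5 : r⁻¹ * x * r⁻¹⁻¹ * x⁻¹ = r⁻¹ * (x * r * x⁻¹) := by group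
    rwa [h5] at h4

end CA

end Cfsg.Agent.BlockLib
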